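import Cfsg.Agent.OD.Pre
import Cfsg.Agent.H2.AutSp

/-! Exceptional automorphisms: generalities. -/

set_option autoImplicit false
set_option linter.unusedSectionVars false

namespace CfH2

open Module

variable {F V : Type*} [Field F] [AddCommGroup V] [Module F V] [FiniteDimensional F V]
  {σ : F →+* F} {ε κ : F} {τ : F →+ F} {B : V →ₛₗ[σ] V →ₗ[F] F} {Q : V → F}
  {H G : Type*} [Group H] [Group G] {ρ : H →* (V ≃ₗ[F] V)} {π : H →* G}

theorem IsWF.exists_map_ts (h : IsWF σ ε κ τ B Q) {X Y : Submodule F V} (hX : ∀ w ∈ X, Q w = 0)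
    (hXX : X ≤ perp B X) (hY : ∀ w ∈ Y, Q w = 0) (hYY : Y ≤ perp B Y)
    (hd : finrank F X = finrank F Y) : ∃ k ∈ Isom B Q, X.map (k : V →ₗ[F] V) = Y := by
  let φ := LinearEquiv.ofFinrankEq X Y hd
  obtain ⟨k, hk, hk'⟩ := h.witt_equiv X Y φ
    (fun x y => by rw [hYY (φ y).2 _ (φ x).2, hXX y.2 _ x.2])
    (fun x => by rw [hY _ (φ x).2, hX _ x.2])
  refine ⟨k, hk, Submodule.eq_of_le_of_finrank_eq ?_ (by rw [LinearEquiv.finrank_map_eq, hd])⟩
  rintro _ ⟨x, hx, rfl⟩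
  have := hk' ⟨x, hx⟩
  simp only [LinearEquiv.coe_coe, this]
  exact (φ _).2

namespace Setup

variable [Fintype F] (p : ℕ) [Fact p.Prime] [CharP F p] (S : Setup σ ε κ τ B Q ρ π)
include S

theorem mem_RG_of_card {x : V} {W : Submodule F V} {γ : MulAut G}
    (h1 : ∀ g, γ g ∈ RG B Q ρ π W → g ∈ QG B Q ρ π x)
    (hc : Nat.card (RG B Q ρ π W) = Nat.card (QG B Q ρ π x)) :
    ∀ g ∈ QG B Q ρ π x, γ g ∈ RG B Q ρ π W := by
  have := S.finite_G
  have h2 : (RG B Q ρ π W).comap γ.toMonoidHom = QG B Q ρ π x := by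
    refine Subgroup.eq_of_le_of_card_ge h1 (le_of_eq ?_)
    rw [← hc]
    exact Nat.card_congr (γ.toEquiv.subtypeEquiv fun _ => Iff.rfl).symm
  intro g hg
  rw [← h2] at hg
  exact hg

theorem inv_mul_mem_Ind {x : V} (hx : Q x = 0) (hx0 : x ≠ 0)
    (hind : ∀ δ : MulAut G, Phi B Q ρ π δ x x → δ ∈ S.Ind) {W : Submodule F V} {α γ : MulAut G}
    (k : H) (h1 : ∀ g ∈ QG B Q ρ π x, γ g ∈ RG B Q ρ π W)
    (h2 : ∀ g, α g ∈ RG B Q ρ π (W.map (ρ k : V →ₗ[F] V)) → g ∈ QG B Q ρ π x) :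
    γ⁻¹ * α ∈ S.Ind := by
  have h3 := hind (γ⁻¹ * (MulAut.conj (π k))⁻¹ * α) (S.phi_of_le hx hx0 hx hx0 fun g hg => by
    have h4 := S.conj_RG k (h1 _ hg)
    exact h2 g (by simpa [mul_assoc] using h4))
  have h4 := mul_mem (S.conj_mem_Ind (γ⁻¹ (π k))) h3
  convert h4 using 1
  ext g
  simp [mul_assoc]

include p in
theorem card_RG_eq {x : V} (hx : Q x = 0) (hx0 : x ≠ 0) {W : Submodule F V}
    (hW : ∀ w ∈ W, Q w = 0) (hWW : W ≤ perp B W) (hW' : perp B W ≤ W)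
    (hc : (∏ j ∈ Finset.range (finrank F W), (Fintype.card F ^ j * Nat.card τ.ker)) *
      Fintype.card F ^ 2 = Fintype.card F ^ finrank F V * Nat.card τ.ker) :
    Nat.card (RG B Q ρ π W) = Nat.card (QG B Q ρ π x) := by
  rw [S.card_RG p (S.RW_lift p hW hW'), QG, S.card_RG p (S.unip x hx), S.wf.card_RW_max hW hWW hW']
  apply Nat.eq_of_mul_eq_mul_right (pow_pos (Fintype.card_pos (α := F)) 2)
  rw [hc]
  exact (S.wf.card_Qx hx hx0).symm

end Setup

theorem IsWF.perp_le_of_half (h : IsWF σ ε κ τ B Q) {W : Submodule F V} (hWW : W ≤ perp B W)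
    (hd : finrank F V = 2 * finrank F W) : perp B W ≤ W :=
  (Submodule.eq_of_le_of_finrank_eq hWW (by have := h.finrank_perp W; omega)).ge

/-- The automorphism of `H / Z(H)` induced by an injective endomorphism of the finite group `H`. -/
theorem exists_aut_center [Finite H] (φ : H →* H) (hφ : Function.Injective φ) :
    ∃ γ : MulAut (H ⧸ Subgroup.center H), ∀ a, γ (QuotientGroup.mk' _ a) =
      QuotientGroup.mk' _ (φ a) :=
  ⟨QuotientGroup.congr _ _ (MulEquiv.ofBijective φ (Finite.injective_iff_bijective.1 hφ))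
    (Subgroup.characteristic_iff_map_eq.1 inferInstance _), fun _ => rfl⟩

end CfH2
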