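import Cfsg.Agent.OD.Pre
import Cfsg.Agent.H2.AutD
import Cfsg.Agent.H2.MaxSing
import Cfsg.Agent.OD.Helper2xb69804c3c6

/-! The two families of maximal singular subspaces and the index of the induced automorphisms
in dimension eight. -/

set_option autoImplicit false
set_option linter.unusedSectionVars false

namespace CfH2

open Module QuadraticMap
open scoped commutatorElement

variable {F V : Type*} [Field F] [AddCommGroup V] [Module F V] [FiniteDimensional F V]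
  {Q : QuadraticForm F V} {G : Type*} [Group G] {ρ : G →* (V ≃ₗ[F] V)}

theorem map_mul_sub (a b : V ≃ₗ[F] V) (W : Submodule F V) :
    W.map ((a * b : V ≃ₗ[F] V) : V →ₗ[F] V) = (W.map (b : V →ₗ[F] V)).map (a : V →ₗ[F] V) := by
  rw [← Submodule.map_comp]; rfl

theorem sing_map {k : V ≃ₗ[F] V} (hk : k ∈ Orth Q) {W : Submodule F V} {m : ℕ}
    (hW : finrank F W = m ∧ ∀ u ∈ W, Q u = 0) :
    finrank F (W.map (k : V →ₗ[F] V)) = m ∧ ∀ u ∈ W.map (k : V →ₗ[F] V), Q u = 0 := by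
  refine ⟨by rw [LinearEquiv.finrank_map_eq, hW.1], ?_⟩
  rintro _ ⟨w, hw, rfl⟩
  exact (Q_orth hk w).trans (hW.2 w hw)

theorem le_of_RW_le {W W' : Submodule F V} (hW : ∀ u ∈ W, Q u = 0)
    (hW' : perp Q.polarBilin W ≤ W) (h2 : 2 ≤ finrank F W)
    (hle : ∀ g ∈ RW Q.polarBilin Q W, g ∈ RW Q.polarBilin Q W') : W' ≤ W := by
  intro v hv
  by_contra hc
  have h1 : ¬ ∀ w ∈ W, Q.polarBilin w v = 0 := fun h1 => hc (hW' h1)
  push Not at h1
  obtain ⟨w1, hw1, h1⟩ := h1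
  obtain ⟨w2, hw2, h3⟩ := exists_mem_notMem_of_finrank_lt (X := ⊥)
    (W := W ⊓ LinearMap.ker (Q.polarBilin v)) (by
      have := le_finrank_inf_ker_add_one W (Q.polarBilin v)
      rw [finrank_bot]; omega)
  obtain ⟨g, hg, hE⟩ := exists_isEich (hW w1 hw1) (polar_eq_zero_of_sing hW hw1 hw2.1)
  have h4 := (hle g (by
    rw [IsWF.RW_eq_fix hW']
    refine ⟨hg, fun w hw => ?_⟩
    rw [hE, polar_eq_zero_of_sing hW hw1 hw, polar_eq_zero_of_sing hW hw2.1 hw]; simp)).2.1 v hv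
  have h5 : polar Q w2 v = 0 := by rw [polar_comm]; exact hw2.2
  rw [hE, h5, hW w2 hw2.1] at h4
  simp only [zero_smul, sub_zero, zero_mul, add_eq_left, smul_eq_zero] at h4
  exact h4.elim h1 h3

theorem exists_Q_eq_of_rad [Finite F] (h : QWF Q) {U : Submodule F V}
    (hU : finrank F (U ⊓ perp Q.polarBilin U : Submodule F V) + 3 ≤ finrank F U) (z : V) :
    ∃ w ∈ U, Q w = Q z := by
  obtain ⟨C, hC⟩ := (U ⊓ perp Q.polarBilin U).exists_isCompl
  have h1 := Submodule.finrank_sup_add_finrank_inf_eq U C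
  have h2 := Submodule.finrank_add_eq_of_isCompl hC
  have h3 := Submodule.finrank_le (U ⊔ C)
  obtain ⟨e, he, he0, hQe⟩ := exists_singular Q (U ⊓ C) (by omega)
  have h4 : ¬ ∀ w ∈ U, Q.polarBilin w e = 0 := fun h4 =>
    he0 (Submodule.disjoint_def.1 hC.disjoint e ⟨he.1, h4⟩ he.2)
  push Not at h4
  obtain ⟨w, hw, h4⟩ := h4
  obtain ⟨c, hc⟩ := h.exists_adjust hQe h4 z
  exact ⟨_, U.add_mem hw (U.smul_mem _ he.1), hc⟩

namespace Rep
variable (hρ : Rep ρ (Orth Q)) (h : QWF Q)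
include hρ h

theorem even_of_mem_commutator {m : ℕ} (hV : finrank F V = 2 * m) {W : Submodule F V}
    (hW : finrank F W = m ∧ ∀ u ∈ W, Q u = 0) {g : G} (hg : g ∈ commutator G) :
    Even (m - finrank F (W ⊓ W.map (ρ g : V →ₗ[F] V) : Submodule F V)) := by
  let χ : G →* ℤˣ := MonoidHom.mk' (fun g =>
    (-1) ^ (m - finrank F (W ⊓ W.map (ρ g : V →ₗ[F] V) : Submodule F V))) fun a b => by
      have h1 := even_codim h hV hW (sing_map (hρ.mem a) hW) (sing_map (hρ.mem (a * b)) hW)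
      rw [map_mul, map_mul_sub, ← Submodule.map_inf _ (ρ a).injective,
        LinearEquiv.finrank_map_eq, ← map_mul_sub, ← map_mul] at h1
      rw [← pow_add, ← mul_right_inj ((-1 : ℤˣ) ^ (m - finrank F
        (W ⊓ W.map (ρ (a * b) : V →ₗ[F] V) : Submodule F V))), ← pow_add, ← pow_add,
        Even.neg_one_pow ⟨_, rfl⟩, Even.neg_one_pow (by rwa [add_comm])]
  have := Abelianization.commutator_subset_ker χ hg
  exact (neg_one_pow_eq_one_iff_even (by decide)).1 this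

omit hρ in
theorem finrank_inf_rf {m : ℕ} (hV : finrank F V = 2 * m) {W : Submodule F V}
    (hW : finrank F W = m ∧ ∀ u ∈ W, Q u = 0) {v : V} (hv : Q v ≠ 0) :
    finrank F (W ⊓ W.map (rf Q v : V →ₗ[F] V) : Submodule F V) + 1 = m := by
  have hvW : v ∉ W := fun hc => hv (hW.2 v hc)
  have h1 : ¬ ∀ w ∈ W, Q.polarBilin w v = 0 := fun h1 => hvW (perp_eq_of_max h hV hW ▸ h1)
  push Not at h1
  obtain ⟨w, hw, h1⟩ := h1
  rw [← hW.1, ← finrank_inf_ker_add_one (Q.polarBilin v) hw (by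
    rwa [polarBilin_apply_apply, polar_comm])]
  refine congrArg (fun X : Submodule F V => finrank F X + 1) (Submodule.ext fun y => ⟨?_, ?_⟩)
  · rintro ⟨hy, x, hx, rfl⟩
    refine ⟨hy, ?_⟩
    have h2 : ((Q v)⁻¹ * polar Q v x) • v ∈ W := by
      simpa [rf_apply] using W.sub_mem hx hy
    have h3 : polar Q v x = 0 := by
      by_contra h3
      exact hvW ((W.smul_mem_iff (mul_ne_zero (inv_ne_zero hv) h3)).1 h2)
    simpa [rf_of_polar h3] using h3
  · rintro ⟨hy, h2⟩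
    exact ⟨hy, y, hy, rf_of_polar h2⟩

theorem rG_mul_mem {u v : V} (hu : Q u ≠ 0) (hv : Q v ≠ 0) (huv : IsSquare (Q u * Q v)) :
    hρ.rG u * hρ.rG v ∈ commutator G := by
  obtain ⟨c, hc⟩ := isConj_iff.1 (hρ.isConj_rG h hu hv huv)
  rw [← hc, ← mul_assoc, ← mul_assoc]
  nth_rewrite 2 [← hρ.rG_inv]
  exact Subgroup.commutator_mem_commutator trivial trivial

theorem exists_map_omega (hn : finrank F V ≠ 4) {W : Submodule F V} (hW : ∀ u ∈ W, Q u = 0)
    (hW0 : W ≠ ⊥) {v : V} (hv : Q v ≠ 0) (g : G) : ∃ a ∈ commutator G,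
      W.map (ρ g : V →ₗ[F] V) = W.map (ρ a : V →ₗ[F] V) ∨
      W.map (ρ g : V →ₗ[F] V) = (W.map (rf Q v : V →ₗ[F] V)).map (ρ a : V →ₗ[F] V) := by
  obtain ⟨e, he, he0⟩ := (Submodule.ne_bot_iff W).1 hW0
  have hQe := hW e he
  obtain ⟨f, hQf, hef⟩ := h.exists_partner' hQe he0
  have hef' : polar Q e f = 1 := hef
  have hee : polar Q e e = 0 := by rw [polar_self', hQe, mul_zero]
  have hff : polar Q f f = 0 := by rw [polar_self', hQf, mul_zero]
  have hQ : ∀ c : F, Q (e + c • f) = c := fun c => by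
    rw [Q_add', Q_smul', hQe, hQf, polar_smul_right, hef']; simp
  let K : Subgroup G := commutator G ⊔ (stabS F (W : Set V)).comap ρ
  have hK : ∀ s ∈ hρ.rS, ∀ t ∈ hρ.rS, s * t ∈ K := by
    rintro _ ⟨x, hx, rfl⟩ _ ⟨y, hy, rfl⟩
    have h1 := hρ.rG_mul_mem h hx (v := e + Q x • f) (by rwa [hQ]) (by rw [hQ]; exact ⟨_, rfl⟩)
    have h2 := hρ.rG_mul_mem h (u := e + Q y • f) (by rwa [hQ]) hy (by rw [hQ]; exact ⟨_, rfl⟩)
    have h3 : hρ.rG (e + Q x • f) * hρ.rG (e + Q y • f) ∈ (stabS F (W : Set V)).comap ρ := by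
      rw [Subgroup.mem_comap, mem_stabS_iff_map]
      refine Submodule.eq_of_le_of_finrank_eq ?_ (LinearEquiv.finrank_map_eq _ _)
      rintro _ ⟨w, hw, rfl⟩
      have hew := polar_eq_zero_of_sing hW he hw
      have : (ρ (hρ.rG (e + Q x • f) * hρ.rG (e + Q y • f))) w =
          w + (polar Q f w * (Q y / Q x - 1)) • e := by
        simp only [map_mul, hρ.map_rG, LinearEquiv.mul_apply, rf_apply, hQ, polar_add_left,
          polar_smul_left, polar_sub_right, polar_smul_right, polar_add_right, hew, hee, hff, hef',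
          polar_comm Q f e, smul_eq_mul]
        match_scalars <;> field_simp <;> ring
      rw [LinearEquiv.coe_coe, this]
      exact W.add_mem hw (W.smul_mem _ he)
    have := mul_mem (mul_mem (Subgroup.mem_sup_left h1) (Subgroup.mem_sup_right h3 : _ ∈ K))
      (Subgroup.mem_sup_left h2)
    simpa only [mul_assoc, ← mul_assoc (hρ.rG (e + _)), hρ.rG_mul_self, one_mul] using this
  have key : ∀ k ∈ K, ∃ a ∈ commutator G, W.map (ρ k : V →ₗ[F] V) = W.map (ρ a : V →ₗ[F] V) := by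
    intro k hk
    obtain ⟨a, ha, s, hs, rfl⟩ := Subgroup.mem_sup_of_normal_left.1 hk
    exact ⟨a, ha, by rw [map_mul, map_mul_sub, mem_stabS_iff_map.1 hs]⟩
  rcases mem_or_mul_mem (hρ.closure_rS h (Or.inr hn)) hρ.rS_inv hK g with h1 | ⟨s, hs, h1⟩
  · obtain ⟨a, ha, h2⟩ := key g h1
    exact ⟨a, ha, Or.inl h2⟩
  · obtain ⟨a, ha, h2⟩ := key (hρ.rG v * g) (by
      have := mul_mem (hK _ (hρ.rG_mem hv) s hs) h1
      rwa [mul_assoc, ← mul_assoc s, hρ.rS_inv s hs, one_mul] at this)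
    refine ⟨hρ.rG v * a * (hρ.rG v)⁻¹, Subgroup.Normal.conj_mem inferInstance a ha _, Or.inr ?_⟩
    rw [← hρ.map_rG, ← map_mul_sub, ← map_mul, inv_mul_cancel_right, map_mul, map_mul_sub, ← h2,
      ← map_mul_sub, ← map_mul, ← mul_assoc, hρ.rG_mul_self, one_mul]

/-- A strong form of perfectness of `Ω`. -/
theorem commutator_le_comm [Finite F] (hn : 8 ≤ finrank F V) {K : Subgroup G}
    (hK : ∀ u v, Q u ≠ 0 → Q v ≠ 0 → IsSquare (Q u * Q v) → hρ.rG u * hρ.rG v ∈ K) :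
    commutator G ≤ ⁅K, K⁆ := by
  let K0 := Subgroup.closure {g | ∃ u v, Q u ≠ 0 ∧ Q v ≠ 0 ∧ IsSquare (Q u * Q v) ∧
    g = hρ.rG u * hρ.rG v}
  have : K0.Normal := normal_closure_of_conj (by
    rintro _ ⟨u, v, hu, hv, huv, rfl⟩ g
    refine ⟨ρ g u, ρ g v, ?_, ?_, ?_, ?_⟩
    · rwa [Q_orth (hρ.mem g)]
    · rwa [Q_orth (hρ.mem g)]
    · rwa [Q_orth (hρ.mem g), Q_orth (hρ.mem g)]
    · rw [← hρ.rG_conj, ← hρ.rG_conj]; group)
  have hle : K0 ≤ K := (Subgroup.closure_le _).2 (by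
    rintro _ ⟨u, v, hu, hv, huv, rfl⟩
    exact hK u v hu hv huv)
  refine (commutator_le_of_gen (hρ.closure_rS h (Or.inr (by omega))) ⁅K0, K0⁆ ?_).trans
    (Subgroup.commutator_mono hle hle)
  rintro _ ⟨x, hx, rfl⟩ _ ⟨y, hy, rfl⟩
  have hcomm : ∀ {u v}, polar Q u v = 0 → Commute (hρ.rG u) (hρ.rG v) := fun huv =>
    hρ.inj (by simp only [map_mul, hρ.map_rG, rf_comm huv])
  have hsp : ∀ (s : Finset V) (X : Submodule F V), X ≤ Submodule.span F (s : Set V) →
      finrank F X ≤ s.card := fun s X hX =>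
    (Submodule.finrank_mono hX).trans (finrank_span_finset_le_card s)
  obtain ⟨z, z', h1, h2, h3, h4, h5, h6, h7, h8, h9⟩ : ∃ z z', Q z ≠ 0 ∧ Q z' ≠ 0 ∧
      IsSquare (Q x * Q z) ∧ IsSquare (Q y * Q z') ∧ polar Q x z = 0 ∧ polar Q y z = 0 ∧
      polar Q x z' = 0 ∧ polar Q y z' = 0 ∧ (z = z' ∨ polar Q z z' = 0) := by
    classical
    have e1 := h.finrank_perp (Submodule.span F {x, y})
    have e2 := hsp {x, y} (Submodule.span F {x, y}) (by simp)
    have e3 := Finset.card_le_two (a := x) (b := y)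
    obtain ⟨z, hz, hQz⟩ := exists_Q_eq_of_rad h (U := perp Q.polarBilin (Submodule.span F {x, y})) (by
      rw [h.perp_perp]
      have := Submodule.finrank_mono (inf_le_right : perp Q.polarBilin (Submodule.span F {x, y}) ⊓
        Submodule.span F {x, y} ≤ _)
      omega) x
    rw [mem_perp_span] at hz
    have hxz : polar Q x z = 0 := hz x (by simp)
    have hyz : polar Q y z = 0 := hz y (by simp)
    by_cases h2 : (2 : F) = 0
    · exact ⟨z, z, by rwa [hQz], by rwa [hQz], isSquare_of_two_eq_zero h2 _,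
        isSquare_of_two_eq_zero h2 _, hxz, hyz, hxz, hyz, Or.inl rfl⟩
    have f1 := h.finrank_perp (Submodule.span F {x, y, z})
    have f2 := hsp {x, y, z} (Submodule.span F {x, y, z}) (by simp)
    have f3 := Finset.card_le_three (a := x) (b := y) (c := z)
    obtain ⟨z', hz', hQz'⟩ := exists_Q_eq_of_rad h
      (U := perp Q.polarBilin (Submodule.span F {x, y, z})) (by
      rw [h.perp_perp]
      have := Submodule.finrank_lt_finrank_of_lt (s := perp Q.polarBilin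
        (Submodule.span F {x, y, z}) ⊓ Submodule.span F {x, y, z}) (t := Submodule.span F {x, y, z})
        (lt_of_le_of_ne inf_le_right fun hc => by
          have hx' : x ∈ Submodule.span F {x, y, z} := Submodule.subset_span (by simp)
          have := (hc.ge hx').1 x hx'
          rw [polarBilin_apply_apply, polar_self'] at this
          exact mul_ne_zero h2 hx this)
      omega) y
    rw [mem_perp_span] at hz'
    exact ⟨z, z', by rwa [hQz], by rwa [hQz'], by rw [hQz]; exact ⟨_, rfl⟩,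
      by rw [hQz']; exact ⟨_, rfl⟩, hxz, hyz, hz' x (by simp), hz' y (by simp),
      Or.inr (hz' z (by simp))⟩
  have c1 := hcomm h5
  have c2 := hcomm h6
  have c3 := hcomm h7
  have c4 := hcomm h8
  have c5 : Commute (hρ.rG z) (hρ.rG z') := h9.elim (fun e => e ▸ Commute.refl _) hcomm
  have : ⁅hρ.rG x, hρ.rG y⁆ = ⁅hρ.rG x * hρ.rG z, hρ.rG y * hρ.rG z'⁆ := by
    simp only [commutatorElement_def, mul_inv_rev, hρ.rG_inv, mul_assoc]
    rw [c2.symm.left_comm, c5.left_comm, ← mul_assoc (hρ.rG z), hρ.rG_mul_self, one_mul,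
      c3.symm.left_comm, ← mul_assoc (hρ.rG z'), hρ.rG_mul_self, one_mul]
  rw [this]
  exact Subgroup.commutator_mem_commutator (Subgroup.subset_closure ⟨x, z, hx, h1, h3, rfl⟩)
    (Subgroup.subset_closure ⟨y, z', hy, h2, h4, rfl⟩)

theorem index_Ind_eq_three [Fintype F] (p : ℕ) [Fact p.Prime] [CharP F p] (hn : finrank F V = 8)
    {γ : MulAut (commutator G ⧸ Subgroup.center (commutator G))}
    (hγ : γ ∉ (hρ.setup_omega h (by omega)).Ind) :
    (hρ.setup_omega h (by omega)).Ind.index = 3 := by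
  have S := hρ.setup_omega h (by omega)
  obtain ⟨x, -, hx0, hx⟩ := exists_singular Q ⊤ (by rw [finrank_top]; omega)
  obtain ⟨v, hv⟩ := exists_nonsing_of_pos h (by omega)
  have hind : ∀ δ, Phi Q.polarBilin Q (omRep ρ) (QuotientGroup.mk' _) δ x x → δ ∈ S.Ind :=
    fun δ hδ => S.induced_of_phi_caseI p (caseI_quad (by omega)) (Or.inl rfl) (fun _ _ _ _ => rfl)
      hx hx0 hx hx0 hδ
  obtain ⟨W, hW4, -, hW, hle⟩ := (hρ.omega_dichotomy p h (by omega) hx hx0 γ).resolve_left hγ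
  have hWW := le_perp_of_sing hW
  have hW' := h.perp_le_of_half hWW (by omega)
  have h1 := S.mem_RG_of_card hle (S.card_RG_eq p hx hx0 hW hWW hW' (by
    simp [hW4, hn, Finset.prod_range_succ]; ring))
  have hN := hρ.norm_omega _ _ _ (isSim_of_isom (rf_mem Q v))
  obtain ⟨θ, hθ⟩ := S.exists_aut (isSim_of_isom (rf_mem Q v)) hN
  have hθ' : ∀ a, ∃ a', θ (QuotientGroup.mk' _ a) = QuotientGroup.mk' _ a' ∧
      omRep ρ a' = rf Q v * omRep ρ a * (rf Q v)⁻¹ := fun a => by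
    obtain ⟨a', ha'⟩ := hN a
    refine ⟨a', hθ a a' ha', ?_⟩
    rw [eq_mul_inv_iff_mul_eq]
    exact LinearEquiv.ext ha'
  have hθI := S.induced_of_isom (rf_mem Q v) hθ'
  have h2 : ∀ g ∈ QG Q.polarBilin Q (omRep ρ) (QuotientGroup.mk' _) x, (θ * γ) g ∈
      RG Q.polarBilin Q (omRep ρ) (QuotientGroup.mk' _) (W.map (rf Q v : V →ₗ[F] V)) := by
    intro g hg
    obtain ⟨a, ha, e⟩ := mem_RG.1 (h1 g hg)
    obtain ⟨a', e1, e2⟩ := hθ' a
    exact mem_RG.2 ⟨a', e2 ▸ conj_mem_RW (rf_mem Q v) ha, by rw [MulAut.mul_apply, ← e, e1]⟩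
  have h3 : γ⁻¹ * (θ * γ) ∉ S.Ind := fun hin => by
    obtain ⟨z, hz, hz0, hφ⟩ := S.phi_of_induced p hin hx hx0
    obtain ⟨k, c, hc, hk⟩ := S.exists_map hx hx0 hz hz0
    obtain ⟨k1, e1⟩ := S.surj (γ (QuotientGroup.mk' _ k))
    -- `R_W` conjugated by `γ k` lies in `R_{rW}`
    have hWk := sing_map (hρ.mem k1) ⟨hW4, hW⟩
    have hle2 : W.map (rf Q v : V →ₗ[F] V) ≤ W.map (ρ k1 : V →ₗ[F] V) := by
      refine le_of_RW_le hWk.2 (h.perp_le_of_half (le_perp_of_sing hWk.2) (by omega)) (by omega)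
        fun g hg => ?_
      obtain ⟨a, rfl⟩ := S.RW_lift p hWk.2 (h.perp_le_of_half (le_perp_of_sing hWk.2) (by omega)) g hg
      have h4 : γ (γ⁻¹ ((QuotientGroup.mk' _ k1)⁻¹ * QuotientGroup.mk' _ a * QuotientGroup.mk' _ k1)) ∈
          RG Q.polarBilin Q (omRep ρ) (QuotientGroup.mk' _) W := by
        rw [← S.conj_RG_iff k1]
        exact mem_RG.2 ⟨a, hg, by simp [mul_assoc]⟩
      have h5 := (S.conj_QG_iff k).2 (hle _ h4)
      rw [hk, QG_smul hc] at h5
      have h6 := h2 _ ((hφ ((γ⁻¹ * (θ * γ))⁻¹ (γ⁻¹ (QuotientGroup.mk' _ a)))).2 (by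
        convert h5 using 1
        rw [e1]
        simp [mul_assoc]))
      obtain ⟨b, hb, e⟩ := mem_RG.1 h6
      have : b = a := S.eq_of_pi p (S.pe_of_RW p hb) (S.pe_of_RW p hg) (by rw [e]; simp)
      exact this ▸ hb
    have h7 := hρ.even_of_mem_commutator h (m := 4) hn ⟨hW4, hW⟩ k1.2
    have h8 := finrank_inf_rf h (m := 4) hn ⟨hW4, hW⟩ hv
    rw [← Submodule.eq_of_le_of_finrank_eq hle2 (by
      rw [LinearEquiv.finrank_map_eq, LinearEquiv.finrank_map_eq]),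
      show finrank F (W ⊓ W.map (rf Q v : V →ₗ[F] V) : Submodule F V) = 3 by omega] at h7
    exact absurd h7 (by decide)
  rw [Subgroup.index, ← Set.ncard_univ, Set.ncard_eq_three]
  refine ⟨QuotientGroup.mk 1, QuotientGroup.mk γ, QuotientGroup.mk (θ * γ), ?_, ?_, ?_, ?_⟩
  · rw [Ne, QuotientGroup.eq]; simpa using hγ
  · rw [Ne, QuotientGroup.eq]
    intro hc
    exact hγ (by simpa using mul_mem (inv_mem hθI) hc)
  · rwa [Ne, QuotientGroup.eq]
  · symm
    rw [Set.eq_univ_iff_forall]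
    intro q
    obtain ⟨α, rfl⟩ := QuotientGroup.mk_surjective q
    simp only [Set.mem_insert_iff, Set.mem_singleton_iff, eq_comm (a := (α : _ ⧸ S.Ind)),
      QuotientGroup.eq]
    rcases hρ.omega_dichotomy p h (by omega) hx hx0 α with hα | ⟨X, hX4, -, hX, hle'⟩
    · exact Or.inl (by simpa using hα)
    obtain ⟨k, hk, rfl⟩ := h.exists_map_ts hW hWW hX (le_perp_of_sing hX) (by rw [hW4, hX4])
    obtain ⟨k, rfl⟩ := hρ.surj k hk
    obtain ⟨a, ha, e | e⟩ := hρ.exists_map_omega h (by omega) hW (by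
      rintro rfl; simp at hW4) hv k
    · rw [e] at hle'
      exact Or.inr (Or.inl (S.inv_mul_mem_Ind hx hx0 hind ⟨a, ha⟩ h1 hle'))
    · rw [e] at hle'
      exact Or.inr (Or.inr (S.inv_mul_mem_Ind hx hx0 hind ⟨a, ha⟩ h2 hle'))

end Rep

end CfH2
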