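import Cfsg.Agent.OD.Pre
import Cfsg.Agent.H2.Count
import Cfsg.Agent.H2.Disc

/-! The stabiliser of a non-degenerate subspace is a direct product of isometry groups. -/

set_option autoImplicit false
set_option linter.unusedSectionVars false

namespace CfH2

open Module

variable {F V V₁ V₂ : Type*} [Field F] [AddCommGroup V] [Module F V] [FiniteDimensional F V]
  [AddCommGroup V₁] [Module F V₁] [AddCommGroup V₂] [Module F V₂]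
  {σ : F →+* F} {ε κ : F} {τ : F →+ F} {B : V →ₛₗ[σ] V →ₗ[F] F} {Q : V → F}
  {B₁ : V₁ →ₛₗ[σ] V₁ →ₗ[F] F} {Q₁ : V₁ → F} {B₂ : V₂ →ₛₗ[σ] V₂ →ₗ[F] F} {Q₂ : V₂ → F}
  {G₁ G₂ : Type*} [Group G₁] [Group G₂] {ρ₁ : G₁ →* (V₁ ≃ₗ[F] V₁)} {ρ₂ : G₂ →* (V₂ ≃ₗ[F] V₂)}

theorem IsWF.exists_rep_prod (h : IsWF σ ε κ τ B Q) {W : Submodule F V} (hW : NondegOn B W)
    (e₁ : V₁ ≃ₗ[F] W) (e₂ : V₂ ≃ₗ[F] perp B W)
    (hB₁ : ∀ x y, B (e₁ x) (e₁ y) = B₁ x y) (hQ₁ : ∀ x, Q (e₁ x) = Q₁ x)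
    (hB₂ : ∀ x y, B (e₂ x) (e₂ y) = B₂ x y) (hQ₂ : ∀ x, Q (e₂ x) = Q₂ x)
    (h₁ : Rep ρ₁ (Isom B₁ Q₁)) (h₂ : Rep ρ₂ (Isom B₂ Q₂)) :
    ∃ Φ : G₁ × G₂ →* (V ≃ₗ[F] V), Rep Φ (Isom B Q ⊓ stabS F (W : Set V)) := by
  let E : (V₁ × V₂) ≃ₗ[F] V :=
    (e₁.prodCongr e₂).trans (Submodule.prodEquivOfIsCompl _ _ (h.NondegOn_isCompl hW))
  have hE : ∀ a b, E (a, b) = (e₁ a : V) + e₂ b := fun _ _ => rfl
  have h12 : ∀ a b, B (e₁ a) (e₂ b) = 0 := fun a b => (e₂ b).2 _ (e₁ a).2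
  have hEB : ∀ a b c d, B (E (a, b)) (E (c, d)) = B₁ a c + B₂ b d := fun a b c d => by
    simp [hE, h12, h.refl (h12 _ _), hB₁, hB₂]
  have hEQ : ∀ a b, Q (E (a, b)) = Q₁ a + Q₂ b := fun a b => by
    rw [hE, h.add, h12, hQ₁, hQ₂]; simp
  let Φ : G₁ × G₂ →* (V ≃ₗ[F] V) :=
    { toFun := fun g => E.symm.trans (((ρ₁ g.1).prodCongr (ρ₂ g.2)).trans E)
      map_one' := by ext v; simp
      map_mul' := fun a b => by ext v; simp }
  have hΦ : ∀ g a b, Φ g (E (a, b)) = E (ρ₁ g.1 a, ρ₂ g.2 b) := fun g a b => by simp [Φ]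
  refine ⟨Φ, ?_, fun g => ⟨⟨fun x y => ?_, fun x => ?_⟩, mem_stabS_of_le fun v hv => ?_⟩, ?_⟩
  · rw [injective_iff_map_eq_one]
    intro g hg
    have h3 : ∀ a b, (ρ₁ g.1 a, ρ₂ g.2 b) = (a, b) := fun a b =>
      E.injective (by rw [← hΦ, hg]; rfl)
    refine Prod.ext (h₁.inj ?_) (h₂.inj ?_)
    · ext a; simpa using congrArg Prod.fst (h3 a 0)
    · ext b; simpa using congrArg Prod.snd (h3 0 b)
  · obtain ⟨⟨a, b⟩, rfl⟩ := E.surjective x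
    obtain ⟨⟨c, d⟩, rfl⟩ := E.surjective y
    rw [hΦ, hΦ, hEB, hEB, (h₁.mem _).1, (h₂.mem _).1]
  · obtain ⟨⟨a, b⟩, rfl⟩ := E.surjective x
    rw [hΦ, hEQ, hEQ, (h₁.mem _).2, (h₂.mem _).2]
  · have : v = E (e₁.symm ⟨v, hv⟩, 0) := by simp [hE]
    rw [this, hΦ, hE]
    simp
  · rintro f ⟨hf, hfW⟩
    have hfW' : f ∈ stabS F (perp B W : Set V) := mem_stabS_of_le fun v hv x hx => by
      have : f.symm x ∈ W := (hfW _).2 (by simpa using hx)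
      rw [← hv _ this, ← hf.1 (f.symm x) v, LinearEquiv.apply_symm_apply]
    let f₁ := f.ofSubmodules W W (mem_stabS_iff_map.1 hfW)
    let f₂ := f.ofSubmodules _ _ (mem_stabS_iff_map.1 hfW')
    have hf₁ : ∀ x, (f₁ x : V) = f x := fun _ => rfl
    have hf₂ : ∀ x, (f₂ x : V) = f x := fun _ => rfl
    obtain ⟨g₁, hg₁⟩ := h₁.surj (e₁.trans (f₁.trans e₁.symm))
      ⟨fun x y => by simp [← hB₁, hf₁, hf.1], fun x => by simp [← hQ₁, hf₁, hf.2]⟩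
    obtain ⟨g₂, hg₂⟩ := h₂.surj (e₂.trans (f₂.trans e₂.symm))
      ⟨fun x y => by simp [← hB₂, hf₂, hf.1], fun x => by simp [← hQ₂, hf₂, hf.2]⟩
    refine ⟨(g₁, g₂), LinearEquiv.ext fun x => ?_⟩
    obtain ⟨⟨a, b⟩, rfl⟩ := E.surjective x
    rw [hΦ, hg₁, hg₂, hE, hE]
    simp [hf₁, hf₂]

theorem exists_equiv_symp {B : LinearMap.BilinForm F V}
    (h : IsWF (RingHom.id F) (-1) 0 0 B (fun _ => 0)) {k : ℕ} (hk : finrank F V = 2 * k) :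
    ∃ e : (Fin k ⊕ Fin k → F) ≃ₗ[F] V, ∀ x y, B (e x) (e y) = sympB k F x y := by
  obtain ⟨m, b, h1, h2, h3⟩ := exists_symp_basis' B (fun x => by simpa using h.self x) h.nondeg
  have hm := finrank_eq_card_basis b
  obtain rfl : m = k := by simp at hm; omega
  obtain ⟨e, -, he⟩ := exists_equiv_of_gram (B := sympB m F) (B' := B) (Pi.basisFun F _)
    (b.reindex (Equiv.sumComm _ _)) (fun i j => by
      rcases i with i | i <;> rcases j with j | j <;>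
        simp [sympB_apply, sympForm_eq_sum, h1, h2, h3, Pi.single_apply, eq_comm]
      rw [h.symm, h1]
      simp [eq_comm, apply_ite])
  exact ⟨e, he⟩

theorem exists_equiv_herm [Fintype F] {q : ℕ} (hF : Fintype.card F = q ^ 2)
    {B : V →ₛₗ[frobQ hF] V →ₗ[F] F}
    (h : IsWF (frobQ hF) 1 1 (trc (frobQ hF)) B (fun x => B x x)) {k : ℕ} (hk : finrank F V = k) :
    ∃ e : (Fin k → F) ≃ₗ[F] V, ∀ x y, B (e x) (e y) = hermB hF k x y := by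
  obtain ⟨b, hb⟩ := herm_exists_orthonormal (frobQ_ne_id hF) h hk
  obtain ⟨e, -, he⟩ := exists_equiv_of_gram (B := hermB hF k) (B' := B) (Pi.basisFun F _) b
    (fun i j => by
      simp [hb, hermB_apply', Pi.single_apply, apply_ite (frobQ hF), eq_comm])
  exact ⟨e, he⟩

end CfH2
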