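import Cfsg.Agent.OD.Pre
import Cfsg.Agent.H2.AutD
import Cfsg.Agent.OD.Helper2xb69804c3c6

/-! The graph automorphism of `Sp₄(2^f)`. -/

set_option autoImplicit false
set_option linter.unusedSectionVars false

namespace CfH2

open Module

variable {F : Type*} [Field F]

/-- Four of the Plücker coordinates. -/
def plk (F : Type*) [Field F] :
    (Fin 2 ⊕ Fin 2 → F) →ₗ[F] (Fin 2 ⊕ Fin 2 → F) →ₗ[F] (Fin 2 ⊕ Fin 2 → F) :=
  LinearMap.mk₂ F (fun x y => Sum.elim
      ![x (.inl 0) * y (.inl 1) - x (.inl 1) * y (.inl 0),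
        x (.inl 0) * y (.inr 1) - x (.inr 1) * y (.inl 0)]
      ![x (.inr 0) * y (.inr 1) - x (.inr 1) * y (.inr 0),
        x (.inl 1) * y (.inr 0) - x (.inr 0) * y (.inl 1)])
    (fun _ _ _ => by ext (i | i) <;> fin_cases i <;> simp <;> ring)
    (fun _ _ _ => by ext (i | i) <;> fin_cases i <;> simp <;> ring)
    (fun _ _ _ => by ext (i | i) <;> fin_cases i <;> simp <;> ring)
    (fun _ _ _ => by ext (i | i) <;> fin_cases i <;> simp <;> ring)

theorem plk_apply (x y : Fin 2 ⊕ Fin 2 → F) : plk F x y = Sum.elim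
      ![x (.inl 0) * y (.inl 1) - x (.inl 1) * y (.inl 0),
        x (.inl 0) * y (.inr 1) - x (.inr 1) * y (.inl 0)]
      ![x (.inr 0) * y (.inr 1) - x (.inr 1) * y (.inr 0),
        x (.inl 1) * y (.inr 0) - x (.inr 0) * y (.inl 1)] := rfl

theorem sympB_two (u v : Fin 2 ⊕ Fin 2 → F) : sympB 2 F u v =
    u (.inr 0) * v (.inl 0) - u (.inl 0) * v (.inr 0) +
      (u (.inr 1) * v (.inl 1) - u (.inl 1) * v (.inr 1)) := by
  rw [sympB_apply, sympForm_eq_sum, Fin.sum_univ_two]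

/-- Basis vectors. -/
abbrev bv (F : Type*) [Field F] (i : Fin 2 ⊕ Fin 2) : Fin 2 ⊕ Fin 2 → F := Pi.single i 1

theorem vec4_eq (v : Fin 2 ⊕ Fin 2 → F) : v = v (.inl 0) • bv F (.inl 0) + v (.inl 1) • bv F (.inl 1)
    + v (.inr 0) • bv F (.inr 0) + v (.inr 1) • bv F (.inr 1) := by
  ext (i | i) <;> fin_cases i <;> simp

theorem plk_self (x : Fin 2 ⊕ Fin 2 → F) : plk F x x = 0 := by
  ext (i | i) <;> fin_cases i <;> simp [plk_apply] <;> ring

theorem plk_swap (x y : Fin 2 ⊕ Fin 2 → F) : plk F y x = -plk F x y := by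
  ext (i | i) <;> fin_cases i <;> simp [plk_apply] <;> ring

/-- The first vector of the pair attached to a basis vector. -/
def pk1 : Fin 2 ⊕ Fin 2 → Fin 2 ⊕ Fin 2 := Sum.elim ![.inl 0, .inl 0] ![.inr 0, .inl 1]

/-- The second vector of the pair attached to a basis vector. -/
def pk2 : Fin 2 ⊕ Fin 2 → Fin 2 ⊕ Fin 2 := Sum.elim ![.inl 1, .inr 1] ![.inr 1, .inr 0]

theorem plk_pk (i : Fin 2 ⊕ Fin 2) : plk F (bv F (pk1 i)) (bv F (pk2 i)) = bv F i := by
  rcases i with i | i <;> fin_cases i <;> ext (j | j) <;> fin_cases j <;>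
    simp [plk_apply, pk1, pk2]

theorem symp_pk (i : Fin 2 ⊕ Fin 2) : sympB 2 F (bv F (pk1 i)) (bv F (pk2 i)) = 0 := by
  rcases i with i | i <;> fin_cases i <;> simp [sympB_two, pk1, pk2]

/-- The induced map. -/
noncomputable def grMap (A : (Fin 2 ⊕ Fin 2 → F) ≃ₗ[F] (Fin 2 ⊕ Fin 2 → F)) :
    (Fin 2 ⊕ Fin 2 → F) →ₗ[F] (Fin 2 ⊕ Fin 2 → F) :=
  (Pi.basisFun F _).constr F fun i => plk F (A (bv F (pk1 i))) (A (bv F (pk2 i)))

theorem grMap_bv (A : (Fin 2 ⊕ Fin 2 → F) ≃ₗ[F] (Fin 2 ⊕ Fin 2 → F)) (i : Fin 2 ⊕ Fin 2) :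
    grMap A (bv F i) = plk F (A (bv F (pk1 i))) (A (bv F (pk2 i))) := by
  have := (Pi.basisFun F (Fin 2 ⊕ Fin 2)).constr_basis F
    (fun i => plk F (A (bv F (pk1 i))) (A (bv F (pk2 i)))) i
  rwa [Pi.basisFun_apply] at this

theorem plk_sum {A : (Fin 2 ⊕ Fin 2 → F) ≃ₗ[F] (Fin 2 ⊕ Fin 2 → F)}
    (hA : A ∈ Isom (sympB 2 F) (fun _ => 0)) :
    plk F (A (bv F (.inl 0))) (A (bv F (.inr 0))) +
      plk F (A (bv F (.inl 1))) (A (bv F (.inr 1))) = 0 := by
  have key : ∀ u v, sympB 2 F (A (bv F (.inl 0))) u * sympB 2 F (A (bv F (.inr 0))) v -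
      sympB 2 F (A (bv F (.inl 0))) v * sympB 2 F (A (bv F (.inr 0))) u +
      (sympB 2 F (A (bv F (.inl 1))) u * sympB 2 F (A (bv F (.inr 1))) v -
      sympB 2 F (A (bv F (.inl 1))) v * sympB 2 F (A (bv F (.inr 1))) u) = -sympB 2 F u v := by
    intro u v
    obtain ⟨u, rfl⟩ := A.surjective u
    obtain ⟨v, rfl⟩ := A.surjective v
    simp only [hA.1]
    simp [sympB_two]; ring
  ext (i | i) <;> fin_cases i
  · have := key (bv F (.inr 0)) (bv F (.inr 1))
    simp [sympB_two] at this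
    simp [plk_apply]; linear_combination this
  · have := key (bv F (.inr 0)) (bv F (.inl 1))
    simp [sympB_two] at this
    simp [plk_apply]; linear_combination -this
  · have := key (bv F (.inl 0)) (bv F (.inl 1))
    simp [sympB_two] at this
    simp [plk_apply]; linear_combination this
  · have := key (bv F (.inr 1)) (bv F (.inl 0))
    simp [sympB_two] at this
    simp [plk_apply]; linear_combination -this

variable (h2 : (2 : F) = 0)
include h2

theorem grMap_plk {A : (Fin 2 ⊕ Fin 2 → F) ≃ₗ[F] (Fin 2 ⊕ Fin 2 → F)}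
    (hA : A ∈ Isom (sympB 2 F) (fun _ => 0)) {x y : Fin 2 ⊕ Fin 2 → F} (h : sympB 2 F x y = 0) :
    grMap A (plk F x y) = plk F (A x) (A y) := by
  have h1 := plk_sum hA
  rw [vec4_eq (plk F x y)]
  conv_rhs => rw [vec4_eq x, vec4_eq y]
  simp only [map_add, map_smul, grMap_bv, LinearMap.add_apply, LinearMap.smul_apply, plk_self]
  simp only [pk1, pk2, plk_apply x y, Sum.elim_inl, Sum.elim_inr, Matrix.cons_val_zero,
    Matrix.cons_val_one]
  rw [plk_swap (A (bv F (.inl 0))) (A (bv F (.inl 1))),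
    plk_swap (A (bv F (.inl 0))) (A (bv F (.inr 0))),
    plk_swap (A (bv F (.inl 0))) (A (bv F (.inr 1))),
    plk_swap (A (bv F (.inl 1))) (A (bv F (.inr 0))),
    plk_swap (A (bv F (.inl 1))) (A (bv F (.inr 1))),
    plk_swap (A (bv F (.inr 0))) (A (bv F (.inr 1))), eq_neg_of_add_eq_zero_left h1]
  rw [sympB_two] at h
  match_scalars
  all_goals first
    | ring1
    | linear_combination -h + (x (.inr 1) * y (.inl 1) - x (.inl 1) * y (.inr 1)) * h2

theorem symp_plk {x y x' y' : Fin 2 ⊕ Fin 2 → F} (h : sympB 2 F x y = 0)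
    (h' : sympB 2 F x' y' = 0) : sympB 2 F (plk F x y) (plk F x' y') =
      sympB 2 F x x' * sympB 2 F y y' + sympB 2 F x y' * sympB 2 F y x' := by
  have : CharP F 2 := (CharP.charP_iff_prime_eq_zero Nat.prime_two).2 (by simpa using h2)
  simp only [sympB_two, plk_apply, Sum.elim_inl, Sum.elim_inr, Matrix.cons_val_zero,
    Matrix.cons_val_one] at h h' ⊢
  grind

theorem exists_grIsom {A : (Fin 2 ⊕ Fin 2 → F) ≃ₗ[F] (Fin 2 ⊕ Fin 2 → F)}
    (hA : A ∈ Isom (sympB 2 F) (fun _ => 0)) :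
    ∃ C ∈ Isom (sympB 2 F) (fun _ => 0), ∀ v, C v = grMap A v := by
  refine (isWF_symp 2 F).exists_isom_of_linearMap (grMap A) (fun u v => B_span (grMap A)
    (s := Set.range (Pi.basisFun F (Fin 2 ⊕ Fin 2))) ?_ u (by rw [Basis.span_eq]; trivial) v
    (by rw [Basis.span_eq]; trivial)) fun _ => rfl
  rintro _ ⟨i, rfl⟩ _ ⟨j, rfl⟩
  rw [Pi.basisFun_apply, Pi.basisFun_apply, grMap_bv, grMap_bv,
    symp_plk h2 (by rw [hA.1, symp_pk]) (by rw [hA.1, symp_pk])]
  simp only [hA.1]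
  rw [← symp_plk h2 (symp_pk i) (symp_pk j), plk_pk, plk_pk]

theorem eq_one_of_grMap {A : (Fin 2 ⊕ Fin 2 → F) ≃ₗ[F] (Fin 2 ⊕ Fin 2 → F)}
    (hA : A ∈ Isom (sympB 2 F) (fun _ => 0)) (h : ∀ v, grMap A v = v) : A = 1 := by
  have : CharP F 2 := (CharP.charP_iff_prime_eq_zero Nat.prime_two).2 (by simpa using h2)
  have h1 : ∀ x y, sympB 2 F x y = 0 → plk F (A x) (A y) = plk F x y := fun x y hxy => by
    rw [← grMap_plk h2 hA hxy, h]
  -- every point is fixed
  have h3 : ∀ x y, sympB 2 F x y = 0 → ∀ u, sympB 2 F x u = 0 → sympB 2 F y u = 0 →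
      ∀ v, sympB 2 F u v = 0 →
      sympB 2 F (A x) u * sympB 2 F (A y) v + sympB 2 F (A x) v * sympB 2 F (A y) u = 0 := by
    intro x y hxy u hxu hyu v huv
    rw [← symp_plk h2 (by rw [hA.1, hxy]) huv, h1 x y hxy, symp_plk h2 hxy huv, hxu, hyu]; simp
  obtain ⟨c, hc⟩ := (isWF_symp 2 F).scalar_of_fix (by simp) (x := bv F (.inl 0)) rfl
    (by simp) (isSim_of_isom hA) fun x _ hx0 => by
      have h := isWF_symp 2 F
      rw [← h.perp_perp (F ∙ x)]
      intro u hu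
      rw [mem_perp_singleton] at hu
      by_contra hne
      have hne' : sympB 2 F (A x) u ≠ 0 := fun h0 => hne (h.refl h0)
      -- choose `y` orthogonal to `x` and `u`, independent of `x`
      obtain ⟨y, hy, hyx⟩ : ∃ y ∈ (LinearMap.ker (sympB 2 F x) ⊓ LinearMap.ker (sympB 2 F u) :
          Submodule F _), y ∉ (F ∙ x) := by
        apply exists_mem_notMem_of_finrank_lt
        have h4 := le_finrank_inf_ker_add_one (LinearMap.ker (sympB 2 F x)) (sympB 2 F u)
        have h5 := le_finrank_inf_ker_add_one ⊤ (sympB 2 F x)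
        rw [top_inf_eq, finrank_top] at h5
        rw [finrank_span_singleton hx0]
        simp only [finrank_fintype_fun_eq_card, Fintype.card_sum, Fintype.card_fin] at h5
        omega
      have hxy : sympB 2 F x y = 0 := hy.1
      have hyu : sympB 2 F y u = 0 := h.refl hy.2
      have h4 := h3 x y hxy u hu hyu
      set t := sympB 2 F (A y) u / sympB 2 F (A x) u with ht
      have h5 : A y + t • A x ∈ (F ∙ u) := by
        rw [← h.perp_perp (F ∙ u)]
        intro v hv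
        have := h4 v (mem_perp_singleton.1 hv)
        refine h.refl ?_
        simp only [map_add, map_smul, LinearMap.add_apply, LinearMap.smul_apply, smul_eq_mul, ht]
        field_simp
        linear_combination this
      obtain ⟨r, hr⟩ := Submodule.mem_span_singleton.1 h5
      have h6 := congrArg (sympB 2 F (A x)) hr
      rw [map_add, map_smul, map_smul, hA.1, hA.1, hxy, sympB_self] at h6
      have h7 : r = 0 := by simpa [hne'] using h6
      rw [h7, zero_smul, ← map_smul, ← map_add, eq_comm, map_eq_zero_iff _ A.injective] at hr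
      exact hyx (Submodule.mem_span_singleton.2 ⟨-t, by
        rw [neg_smul]; exact (eq_neg_of_add_eq_zero_left hr).symm⟩)
  have h4 := hA.1 (bv F (.inr 0)) (bv F (.inl 0))
  rw [hc, hc] at h4
  simp [sympB_two] at h4
  have h5 : c = 1 := eq_one_of_pow_char (p := 2) (k := 1) (by rw [pow_one, pow_two, h4])
  ext1 v
  rw [hc, h5, one_smul]; rfl

theorem exists_graph [Fintype F] {H : Type*} [Group H]
    {ρ : H →* ((Fin 2 ⊕ Fin 2 → F) ≃ₗ[F] (Fin 2 ⊕ Fin 2 → F))}
    (hρ : Rep ρ (Isom (sympB 2 F) (fun _ => 0))) :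
    ((hρ.setup_sp (isWF_symp 2 F) (by simp)).Ind).index = 2 := by
  have : CharP F 2 := (CharP.charP_iff_prime_eq_zero Nat.prime_two).2 (by simpa using h2)
  have h := isWF_symp 2 F
  have S := hρ.setup_sp h (by simp)
  have := S.finite_H
  have h1 : ∀ a, ∃ b, ∀ v, ρ b v = grMap (ρ a) v := fun a => by
    obtain ⟨C, hC, hC'⟩ := exists_grIsom h2 (hρ.mem a)
    obtain ⟨b, rfl⟩ := hρ.surj C hC
    exact ⟨b, hC'⟩
  choose f hf using h1
  let φ : H →* H := MonoidHom.mk' f fun a b => hρ.inj (by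
    apply LinearEquiv.toLinearMap_injective
    refine (Pi.basisFun F _).ext fun i => ?_
    simp only [Pi.basisFun_apply, LinearEquiv.coe_coe, map_mul, LinearEquiv.mul_apply, hf]
    rw [grMap_bv, grMap_bv, grMap_plk h2 (hρ.mem a) (by rw [(hρ.mem b).1, symp_pk])]
    rfl)
  have hφ : Function.Injective φ := (injective_iff_map_eq_one φ).2 fun a ha => hρ.inj (by
    rw [map_one]
    refine eq_one_of_grMap h2 (hρ.mem a) fun v => ?_
    rw [← hf, show f a = 1 from ha]; simp)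
  obtain ⟨γ, hγ⟩ := exists_aut_center φ hφ
  have hx0 : bv F (.inl 0) ≠ 0 := by simp
  have hγn : γ ∉ S.Ind := fun hin => by
    obtain ⟨z, -, hz0, hz⟩ := S.phi_of_induced 2 hin (x := bv F (.inl 0)) rfl hx0
    have key : ∀ y, sympB 2 F (bv F (.inl 0)) y = 0 → plk F (bv F (.inl 0)) y ∈ (F ∙ z) := by
      intro y hy
      refine h.mem_span_of_fix' S.dim rfl hz0 fun g hg => ?_
      obtain ⟨b, rfl⟩ := S.unip z rfl g hg
      obtain ⟨a, ha, hab⟩ := hz.symm.lift hg
      have h3 : b = φ a := S.eq_of_pi 2 (S.pe_of_RW 2 hg) (by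
        obtain ⟨k, hk⟩ := S.pe_of_RW 2 ha
        exact ⟨k, by rw [← map_pow, hk, map_one]⟩) (by rw [← hγ, ← hab]; simp)
      obtain ⟨c, hc⟩ := (mem_Qx.1 ha).2.2 y hy
      rw [h3, show ρ (φ a) _ = _ from hf a _, grMap_plk h2 (hρ.mem a) hy, (mem_Qx.1 ha).2.1, hc]
      simp [plk_self]
    obtain ⟨c, hc⟩ := Submodule.mem_span_singleton.1 (key _ (symp_pk (.inl 0)))
    obtain ⟨d, hd⟩ := Submodule.mem_span_singleton.1 (key _ (symp_pk (.inl 1)))
    have h3 := congrFun hc (.inl 0)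
    have h4 := congrFun hc (.inl 1)
    have h5 := congrFun hd (.inl 1)
    simp [plk_apply, pk2] at h3 h4 h5
    rcases h4 with h4 | h4 <;> simp [h4] at h3 h5
  obtain ⟨-, -, W1, hW1, hW1', hle1⟩ :=
    (hρ.sp_dichotomy 2 h S.dim hx0 γ).resolve_left hγn
  have hc := S.card_RG_eq 2 (x := bv F (.inl 0)) rfl hx0 (W := W1) (fun _ _ => rfl) hW1'
    (h.perp_le_of_half hW1' (by simp [hW1])) (by
      simp [hW1, Finset.prod_range_succ]; ring)
  have h3 := S.mem_RG_of_card hle1 hc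
  rw [Subgroup.index_eq_two_iff']
  refine ⟨γ⁻¹, fun α => ?_⟩
  by_cases hα : α ∈ S.Ind
  · refine Or.inr ⟨hα, fun h4 => hγn ?_⟩
    simpa using inv_mem (mul_mem h4 (inv_mem hα))
  · refine Or.inl ⟨?_, hα⟩
    obtain ⟨-, -, W, hW, hW', hle⟩ := (hρ.sp_dichotomy 2 h S.dim hx0 α).resolve_left hα
    obtain ⟨k, hk, rfl⟩ := h.exists_map_ts (X := W1) (Y := W) (fun _ _ => rfl) hW1' (fun _ _ => rfl)
      hW' (by rw [hW, hW1])
    obtain ⟨k, rfl⟩ := hρ.surj k hk
    exact S.inv_mul_mem_Ind rfl hx0 (fun δ hδ => hρ.sp_induced_of_phi 2 h S.dim hx0 hx0 hδ) k h3 hle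

end CfH2
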