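import Cfsg.Agent.OD.Pre
import Cfsg.Agent.H2.AutD

/-! Split octonions on `F^8` with the hyperbolic norm form. -/

set_option autoImplicit false
set_option linter.unusedSectionVars false
set_option linter.unusedSimpArgs false

namespace CfH2

open Module QuadraticMap

variable {F : Type*} [Field F]

/-- The underlying space. -/
abbrev O8 (F : Type*) := Fin 4 ⊕ Fin 4 → F

/-- Zorn's vector-matrix product. -/
def omf (x y : O8 F) : O8 F := Sum.elim
      ![x (.inl 0) * y (.inl 0) - (x (.inl 1) * y (.inr 1) + x (.inl 2) * y (.inr 2) +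
          x (.inl 3) * y (.inr 3)),
        x (.inl 0) * y (.inl 1) + y (.inr 0) * x (.inl 1) -
          (x (.inr 2) * y (.inr 3) - x (.inr 3) * y (.inr 2)),
        x (.inl 0) * y (.inl 2) + y (.inr 0) * x (.inl 2) -
          (x (.inr 3) * y (.inr 1) - x (.inr 1) * y (.inr 3)),
        x (.inl 0) * y (.inl 3) + y (.inr 0) * x (.inl 3) -
          (x (.inr 1) * y (.inr 2) - x (.inr 2) * y (.inr 1))]
      ![x (.inr 0) * y (.inr 0) - (x (.inr 1) * y (.inl 1) + x (.inr 2) * y (.inl 2) +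
          x (.inr 3) * y (.inl 3)),
        y (.inl 0) * x (.inr 1) + x (.inr 0) * y (.inr 1) -
          (x (.inl 2) * y (.inl 3) - x (.inl 3) * y (.inl 2)),
        y (.inl 0) * x (.inr 2) + x (.inr 0) * y (.inr 2) -
          (x (.inl 3) * y (.inl 1) - x (.inl 1) * y (.inl 3)),
        y (.inl 0) * x (.inr 3) + x (.inr 0) * y (.inr 3) -
          (x (.inl 1) * y (.inl 2) - x (.inl 2) * y (.inl 1))]

section coords
variable (x y : O8 F)

theorem omf_l0 : omf x y (.inl 0) = x (.inl 0) * y (.inl 0) - (x (.inl 1) * y (.inr 1) +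
  x (.inl 2) * y (.inr 2) + x (.inl 3) * y (.inr 3)) := rfl
theorem omf_l1 : omf x y (.inl 1) = x (.inl 0) * y (.inl 1) + y (.inr 0) * x (.inl 1) -
  (x (.inr 2) * y (.inr 3) - x (.inr 3) * y (.inr 2)) := rfl
theorem omf_l2 : omf x y (.inl 2) = x (.inl 0) * y (.inl 2) + y (.inr 0) * x (.inl 2) -
  (x (.inr 3) * y (.inr 1) - x (.inr 1) * y (.inr 3)) := rfl
theorem omf_l3 : omf x y (.inl 3) = x (.inl 0) * y (.inl 3) + y (.inr 0) * x (.inl 3) -
  (x (.inr 1) * y (.inr 2) - x (.inr 2) * y (.inr 1)) := rfl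
theorem omf_r0 : omf x y (.inr 0) = x (.inr 0) * y (.inr 0) - (x (.inr 1) * y (.inl 1) +
  x (.inr 2) * y (.inl 2) + x (.inr 3) * y (.inl 3)) := rfl
theorem omf_r1 : omf x y (.inr 1) = y (.inl 0) * x (.inr 1) + x (.inr 0) * y (.inr 1) -
  (x (.inl 2) * y (.inl 3) - x (.inl 3) * y (.inl 2)) := rfl
theorem omf_r2 : omf x y (.inr 2) = y (.inl 0) * x (.inr 2) + x (.inr 0) * y (.inr 2) -
  (x (.inl 3) * y (.inl 1) - x (.inl 1) * y (.inl 3)) := rfl
theorem omf_r3 : omf x y (.inr 3) = y (.inl 0) * x (.inr 3) + x (.inr 0) * y (.inr 3) -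
  (x (.inl 1) * y (.inl 2) - x (.inl 2) * y (.inl 1)) := rfl

end coords

theorem o8_ext {x y : O8 F} (h0 : x (.inl 0) = y (.inl 0)) (h1 : x (.inl 1) = y (.inl 1))
    (h2 : x (.inl 2) = y (.inl 2)) (h3 : x (.inl 3) = y (.inl 3)) (h4 : x (.inr 0) = y (.inr 0))
    (h5 : x (.inr 1) = y (.inr 1)) (h6 : x (.inr 2) = y (.inr 2)) (h7 : x (.inr 3) = y (.inr 3)) :
    x = y := by
  ext (i | i) <;> fin_cases i <;> assumption

/-- The product as a bilinear map. -/
def omul (F : Type*) [Field F] : O8 F →ₗ[F] O8 F →ₗ[F] O8 F :=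
  LinearMap.mk₂ F omf
    (fun _ _ _ => by
      apply o8_ext <;> simp only [omf_l0, omf_l1, omf_l2, omf_l3, omf_r0, omf_r1, omf_r2, omf_r3,
        Pi.add_apply, Pi.smul_apply, smul_eq_mul] <;> ring)
    (fun _ _ _ => by
      apply o8_ext <;> simp only [omf_l0, omf_l1, omf_l2, omf_l3, omf_r0, omf_r1, omf_r2, omf_r3,
        Pi.add_apply, Pi.smul_apply, smul_eq_mul] <;> ring)
    (fun _ _ _ => by
      apply o8_ext <;> simp only [omf_l0, omf_l1, omf_l2, omf_l3, omf_r0, omf_r1, omf_r2, omf_r3,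
        Pi.add_apply, Pi.smul_apply, smul_eq_mul] <;> ring)
    (fun _ _ _ => by
      apply o8_ext <;> simp only [omf_l0, omf_l1, omf_l2, omf_l3, omf_r0, omf_r1, omf_r2, omf_r3,
        Pi.add_apply, Pi.smul_apply, smul_eq_mul] <;> ring)

section coords
variable (x y : O8 F)

theorem omul_l0 : omul F x y (.inl 0) = x (.inl 0) * y (.inl 0) - (x (.inl 1) * y (.inr 1) +
  x (.inl 2) * y (.inr 2) + x (.inl 3) * y (.inr 3)) := rfl
theorem omul_l1 : omul F x y (.inl 1) = x (.inl 0) * y (.inl 1) + y (.inr 0) * x (.inl 1) -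
  (x (.inr 2) * y (.inr 3) - x (.inr 3) * y (.inr 2)) := rfl
theorem omul_l2 : omul F x y (.inl 2) = x (.inl 0) * y (.inl 2) + y (.inr 0) * x (.inl 2) -
  (x (.inr 3) * y (.inr 1) - x (.inr 1) * y (.inr 3)) := rfl
theorem omul_l3 : omul F x y (.inl 3) = x (.inl 0) * y (.inl 3) + y (.inr 0) * x (.inl 3) -
  (x (.inr 1) * y (.inr 2) - x (.inr 2) * y (.inr 1)) := rfl
theorem omul_r0 : omul F x y (.inr 0) = x (.inr 0) * y (.inr 0) - (x (.inr 1) * y (.inl 1) +
  x (.inr 2) * y (.inl 2) + x (.inr 3) * y (.inl 3)) := rfl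
theorem omul_r1 : omul F x y (.inr 1) = y (.inl 0) * x (.inr 1) + x (.inr 0) * y (.inr 1) -
  (x (.inl 2) * y (.inl 3) - x (.inl 3) * y (.inl 2)) := rfl
theorem omul_r2 : omul F x y (.inr 2) = y (.inl 0) * x (.inr 2) + x (.inr 0) * y (.inr 2) -
  (x (.inl 3) * y (.inl 1) - x (.inl 1) * y (.inl 3)) := rfl
theorem omul_r3 : omul F x y (.inr 3) = y (.inl 0) * x (.inr 3) + x (.inr 0) * y (.inr 3) -
  (x (.inl 1) * y (.inl 2) - x (.inl 2) * y (.inl 1)) := rfl

theorem qPlus_four : qPlus 4 F x = x (.inl 0) * x (.inr 0) + x (.inl 1) * x (.inr 1) +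
    x (.inl 2) * x (.inr 2) + x (.inl 3) * x (.inr 3) := by
  rw [qPlus_apply, Cfsg.quadFormPlus, Fin.sum_univ_four]

theorem polar_four : polar (qPlus 4 F) x y =
    x (.inl 0) * y (.inr 0) + x (.inr 0) * y (.inl 0) +
    (x (.inl 1) * y (.inr 1) + x (.inr 1) * y (.inl 1)) +
    (x (.inl 2) * y (.inr 2) + x (.inr 2) * y (.inl 2)) +
    (x (.inl 3) * y (.inr 3) + x (.inr 3) * y (.inl 3)) := by
  rw [polar_qPlus, Fin.sum_univ_four]

end coords

/-- The unit. -/
def oone (F : Type*) [Field F] : O8 F := Sum.elim ![1, 0, 0, 0] ![1, 0, 0, 0]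

theorem q_oone : qPlus 4 F (oone F) = 1 := by simp [qPlus_four, oone]

/-- Conjugation. -/
noncomputable def ocj (F : Type*) [Field F] : O8 F ≃ₗ[F] O8 F :=
  rf (qPlus 4 F) (oone F) * LinearEquiv.neg F

theorem ocj_apply (x : O8 F) : ocj F x = Sum.elim
    ![x (.inr 0), -x (.inl 1), -x (.inl 2), -x (.inl 3)]
    ![x (.inl 0), -x (.inr 1), -x (.inr 2), -x (.inr 3)] := by
  rw [ocj, LinearEquiv.mul_apply, rf_apply, q_oone, polar_four]
  apply o8_ext <;> simp [oone]

theorem ocj_eq (x : O8 F) : ocj F x = -rf (qPlus 4 F) (oone F) x := by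
  simp [ocj]

theorem ocj_ocj (x : O8 F) : ocj F (ocj F x) = x := by simp [ocj_eq, rf_rf]

theorem q_ocj (x : O8 F) : qPlus 4 F (ocj F x) = qPlus 4 F x := by
  rw [ocj_eq, QuadraticMap.map_neg, Q_orth (rf_mem _ _)]

theorem ocj_mem : ocj F ∈ Orth (qPlus 4 F) := mem_Isom_quad.2 q_ocj

theorem omul_one (x : O8 F) : omul F x (oone F) = x := by
  apply o8_ext <;> simp [omul_l0, omul_l1, omul_l2, omul_l3, omul_r0, omul_r1, omul_r2, omul_r3, oone]

theorem one_omul (x : O8 F) : omul F (oone F) x = x := by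
  apply o8_ext <;> simp [omul_l0, omul_l1, omul_l2, omul_l3, omul_r0, omul_r1, omul_r2, omul_r3, oone]

theorem q_omul (x y : O8 F) : qPlus 4 F (omul F x y) = qPlus 4 F x * qPlus 4 F y := by
  simp only [qPlus_four, omul_l0, omul_l1, omul_l2, omul_l3, omul_r0, omul_r1, omul_r2, omul_r3]
  ring

theorem omul_moufang (u x y : O8 F) :
    omul F (omul F u (omul F x y)) u = omul F (omul F u x) (omul F y u) := by
  apply o8_ext <;>
    simp only [omul_l0, omul_l1, omul_l2, omul_l3, omul_r0, omul_r1, omul_r2, omul_r3] <;> ring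

theorem omul_omul_ocj (x y : O8 F) : omul F (omul F x y) (ocj F y) = qPlus 4 F y • x := by
  apply o8_ext <;>
    simp [omul_l0, omul_l1, omul_l2, omul_l3, omul_r0, omul_r1, omul_r2, omul_r3, ocj_apply,
      qPlus_four] <;> ring

theorem omul_ocj_omul (u x : O8 F) :
    omul F (omul F u (ocj F x)) u = polar (qPlus 4 F) u x • u - qPlus 4 F u • x := by
  apply o8_ext <;>
    simp [omul_l0, omul_l1, omul_l2, omul_l3, omul_r0, omul_r1, omul_r2, omul_r3, ocj_apply,
      qPlus_four, polar_four] <;> ring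

theorem nucleus {c : O8 F} (h : ∀ x y, omul F (omul F x y) c = omul F x (omul F y c)) :
    c = c (.inl 0) • oone F := by
  have h1 := h (Pi.single (.inl 1) 1) (Pi.single (.inl 2) 1)
  have h2 := h (Pi.single (.inl 2) 1) (Pi.single (.inl 3) 1)
  have h3 := h (Pi.single (.inr 1) 1) (Pi.single (.inr 2) 1)
  have h4 := h (Pi.single (.inr 2) 1) (Pi.single (.inr 3) 1)
  have a0 := congrFun h1 (.inl 0)
  have a1 := congrFun h1 (.inl 1)
  have a2 := congrFun h1 (.inl 2)
  have a3 := congrFun h1 (.inr 0)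
  have a4 := congrFun h1 (.inr 3)
  have b2 := congrFun h2 (.inl 2)
  have b3 := congrFun h2 (.inr 0)
  have c1 := congrFun h3 (.inr 1)
  have c2 := congrFun h3 (.inr 2)
  have c3 := congrFun h3 (.inl 0)
  have d1 := congrFun h4 (.inl 0)
  simp [omul_l0, omul_l1, omul_l2, omul_l3, omul_r0, omul_r1, omul_r2, omul_r3] at a0 a1 a2 a3 a4 b2 b3 c1 c2 c3 d1
  apply o8_ext <;> simp [oone, a1, a2, a3, ← a4, b2, b3, c1]

end CfH2
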