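import Cfsg.Agent.OD.Pre

set_option autoImplicit false

namespace CfH2

theorem even_half_iff {q : ℕ} (hq : Odd q) (m : ℕ) : Even (m * (q - 1) / 2) ↔ q ^ m % 4 = 1 := by
  obtain ⟨k, rfl⟩ := hq
  rw [show m * (2 * k + 1 - 1) / 2 = m * k by
    rw [Nat.add_sub_cancel, mul_left_comm, Nat.mul_div_cancel_left _ two_pos]]
  rcases Nat.even_or_odd k with ⟨j, rfl⟩ | ⟨j, rfl⟩
  · have : (2 * (j + j) + 1) % 4 = 1 := by omega
    simp [Nat.pow_mod, this, parity_simps]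
  · have h3 : (2 * (2 * j + 1) + 1) % 4 = 3 := by omega
    rw [Nat.pow_mod, h3]
    rcases Nat.even_or_odd m with ⟨i, rfl⟩ | ⟨i, rfl⟩
    · simp [← two_mul, pow_mul, Nat.pow_mod, parity_simps]
    · simp [pow_succ, pow_mul, Nat.pow_mod, Nat.mul_mod, parity_simps]

end CfH2
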