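import Cfsg.Agent.OD.Pre
import Cfsg.Agent.H9.RankOne
import Cfsg.Prelude.Def_Quasithin
import Cfsg.Prelude.Def_KGroupFacts

/-! Interface for S1820/S1821: the facts about known simple groups that are used. -/

set_option autoImplicit false
set_option linter.unusedVariables false
open Cfsg Subgroup CfH9

namespace CfH2
namespace Qc

universe u

/-- `p`-rank at least two -/
abbrev R2 (p : ℕ) (K : Type*) [Group K] : Prop := PRankAtLeast p 2 K

/-- perfect groups of automorphisms are inner -/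
def PO (K : Type u) [Group K] : Prop := ∀ B : Subgroup (MulAut K), ⁅B, B⁆ = B → B ≤ Inn K

/-- three commuting elements of order three, separated by two inverting elements -/
def ES (K : Type*) [Group K] : Prop :=
  ∃ x y z s t : K, x ≠ 1 ∧ y ≠ 1 ∧ z ≠ 1 ∧ x ^ 3 = 1 ∧ y ^ 3 = 1 ∧ z ^ 3 = 1 ∧
    Commute x y ∧ Commute x z ∧ Commute y z ∧ s * x * s⁻¹ = x⁻¹ ∧ s * y * s⁻¹ = y⁻¹ ∧
    s * z * s⁻¹ = z ∧ t * x * t⁻¹ = x⁻¹ ∧ t * y * t⁻¹ = y ∧ t * z * t⁻¹ = z⁻¹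

/-- a Sylow 2-subgroup has abelianisation of order at most `2 ^ 11` -/
def SG (K : Type*) [Group K] : Prop :=
  ∃ S : Sylow 2 K, Nat.card S ≤ 2 ^ 11 * Nat.card ↥⁅(S : Subgroup K), (S : Subgroup K)⁆

/-- the order of `GL₁₁(2)` -/
def c11 : ℕ := ∏ i ∈ Finset.range 11, (2 ^ 11 - 2 ^ i)

def Lst (K : Type*) [Group K] : Prop :=
  (∃ p : ℕ, p.Prime ∧ p ≠ 2 ∧ R2 p K) ∨
  (∃ (F : Type) (_ : Field F) (_ : Fintype F), CharP F 2 ∧
    Nonempty (K ≃* Matrix.ProjectiveSpecialLinearGroup (Fin 2) F)) ∨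
  Lie.IsoSuzuki K ∨
  (∃ (F : Type) (_ : Field F) (_ : Fintype F), (Fintype.card F).Prime ∧ Fintype.card F ≠ 2 ∧
    Nonempty (K ≃* Matrix.ProjectiveSpecialLinearGroup (Fin 2) F)) ∨
  Spor.IsoJ1 K

def Thr (K : Type*) [Group K] : Prop :=
  3 ∣ Nat.card K ∨ (5 ∣ Nat.card K ∧ ¬ Nat.card K ∣ c11)

def W (K : Type*) [Group K] : Prop := ES K ∨ (R2 3 K ∧ (R2 5 K ∨ SG K))

/-- the facts needed for every known non-abelian simple group -/
def KF (K : Type u) [Group K] : Prop := (PO K ∧ Lst K ∧ Thr K) ∨ W K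

variable {K : Type*} {L : Type*} [Group K] [Group L] {p : ℕ}

theorem R2.of_inj [Finite L] (h : R2 p K) (f : K →* L) (hf : Function.Injective f) : R2 p L := by
  obtain ⟨A, h1, h2, h3⟩ := h
  refine ⟨A.map f, inferInstance, ?_, ?_⟩
  · rintro _ ⟨a, ha, rfl⟩
    rw [← map_pow, h2 a ha, map_one]
  · rwa [card_map_of_injective hf]

theorem ES.of_ne (f : K →* L) {x y z s t : K} (h1 : f x ≠ 1) (h2 : f y ≠ 1) (h3 : f z ≠ 1)
    (h : x ^ 3 = 1 ∧ y ^ 3 = 1 ∧ z ^ 3 = 1 ∧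
    Commute x y ∧ Commute x z ∧ Commute y z ∧ s * x * s⁻¹ = x⁻¹ ∧ s * y * s⁻¹ = y⁻¹ ∧
    s * z * s⁻¹ = z ∧ t * x * t⁻¹ = x⁻¹ ∧ t * y * t⁻¹ = y ∧ t * z * t⁻¹ = z⁻¹) : ES L := by
  obtain ⟨a1, a2, a3, a4, a5, a6, a7, a8, a9, b1, b2, b3⟩ := h
  refine ⟨f x, f y, f z, f s, f t, h1, h2, h3, ?_, ?_, ?_, a4.map f, a5.map f, a6.map f,
    ?_, ?_, ?_, ?_, ?_, ?_⟩ <;>
  simp only [← map_pow, ← map_inv, ← map_mul, a1, a2, a3, a7, a8, a9, b1, b2, b3, map_one]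

theorem ES.of_inj (h : ES K) (f : K →* L) (hf : Function.Injective f) : ES L := by
  obtain ⟨x, y, z, s, t, h1, h2, h3, h⟩ := h
  exact ES.of_ne f (fun e => h1 (hf (e.trans f.map_one.symm)))
    (fun e => h2 (hf (e.trans f.map_one.symm))) (fun e => h3 (hf (e.trans f.map_one.symm))) h

theorem sw_mem (a b c d : Fin 9) (h1 : a ≠ b) (h2 : c ≠ d) :
    Equiv.swap a b * Equiv.swap c d ∈ alternatingGroup (Fin 9) := by
  simp [Equiv.Perm.mem_alternatingGroup, Equiv.Perm.sign_swap h1, Equiv.Perm.sign_swap h2]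

theorem es_alt9 : ES (alternatingGroup (Fin 9)) := by
  refine ⟨⟨_, sw_mem 0 1 1 2 (by decide) (by decide)⟩, ⟨_, sw_mem 3 4 4 5 (by decide) (by decide)⟩,
    ⟨_, sw_mem 6 7 7 8 (by decide) (by decide)⟩, ⟨_, sw_mem 0 1 3 4 (by decide) (by decide)⟩,
    ⟨_, sw_mem 0 1 6 7 (by decide) (by decide)⟩,
    ?_, ?_, ?_, ?_, ?_, ?_, ?_, ?_, ?_, ?_, ?_, ?_, ?_, ?_, ?_⟩ <;>
  simp only [Commute, SemiconjBy, ne_eq, Subtype.ext_iff, coe_mul, coe_inv, coe_pow, coe_one] <;>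
  decide

variable [Finite K]

theorem r2_of_pair [Fact p.Prime] {x y : K} (hx : x ^ p = 1) (hy : orderOf y = p)
    (hxy : x ∉ zpowers y) (hc : Commute x y) : R2 p K := by
  have h := elemAb_sup_zpowers (elemAb_zpowers (p := p) (x := y) (hy ▸ pow_orderOf_eq_one y)) hx
    (by rw [zpowers_eq_closure, centralizer_closure]
        exact mem_centralizer_singleton_iff.2 hc.eq)
  exact ⟨_, h.1, h.2, sq_le_card_sup_zpowers hx hy hxy
    (mem_centralizer_singleton_iff.2 hc.eq)⟩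

theorem r2_of_not_isCyclic [Fact p.Prime] (hp : p ≠ 2) {P : Subgroup K} (hP : IsPGroup p P)
    (h : ¬ IsCyclic P) : R2 p K := by
  by_contra c
  refine h (isCyclic_of_pRankLE_one hp (fun A h1 h2 => ?_) hP)
  have hA : IsPGroup p A := fun a => ⟨1, Subtype.ext (by simpa using h2 a a.2)⟩
  obtain ⟨n, hn⟩ := hA.exists_card_eq
  by_contra c'
  refine c ⟨A, h1, h2, ?_⟩
  rw [hn] at c' ⊢
  exact Nat.pow_le_pow_right (Fact.out : p.Prime).pos (by
    by_contra d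
    exact c' (Nat.pow_le_pow_right (Fact.out : p.Prime).pos (by omega)))

theorem R2.dvd [Fact p.Prime] (h : R2 p K) : p ∣ Nat.card K := by
  obtain ⟨A, h1, h2, h3⟩ := h
  have hA : IsPGroup p A := fun a => ⟨1, Subtype.ext (by simpa using h2 a a.2)⟩
  obtain ⟨n, hn⟩ := hA.exists_card_eq
  refine dvd_trans ?_ A.card_subgroup_dvd_card
  rw [hn] at h3 ⊢
  refine dvd_pow_self p ?_
  rintro rfl
  have := (Fact.out : p.Prime).two_le
  nlinarith

theorem ES.r2 (h : ES K) : R2 3 K := by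
  obtain ⟨x, y, z, s, t, h1, h2, h3, a1, a2, a3, a4, a5, a6, a7, a8, a9, b1, b2, b3⟩ := h
  refine r2_of_pair a1 (orderOf_eq_prime a2 h2) ?_ a4
  rintro ⟨k, rfl⟩
  have e : t * y ^ k * t⁻¹ = y ^ k := by rw [← conj_zpow, b2]
  have e2 : y ^ k * y ^ k = 1 := eq_inv_iff_mul_eq_one.1 (e.symm.trans b1)
  refine h1 ?_
  have : (y ^ k) ^ 3 = y ^ k * y ^ k * y ^ k := by rw [pow_succ, sq]
  simpa [this, e2] using a1

/-- a 2-subgroup with a large commutator subgroup gives `SG` -/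
theorem sg_of_sub {Q : Subgroup K} (hQ : IsPGroup 2 Q) {k m : ℕ} (hk : ¬ 2 ^ (k + 1) ∣ Nat.card K)
    (hm : 2 ^ m ≤ Nat.card ↥⁅Q, Q⁆) (h : k ≤ 11 + m) : SG K := by
  obtain ⟨S, hS⟩ := hQ.exists_le_sylow
  refine ⟨S, ?_⟩
  obtain ⟨n, hn⟩ := S.isPGroup'.exists_card_eq
  have h1 : n ≤ k := by
    by_contra c
    exact hk ((pow_dvd_pow 2 (by omega)).trans (hn ▸ (S : Subgroup K).card_subgroup_dvd_card))
  calc Nat.card S = 2 ^ n := hn
    _ ≤ 2 ^ 11 * 2 ^ m := by rw [← pow_add]; exact Nat.pow_le_pow_right (by decide) (by omega)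
    _ ≤ _ := Nat.mul_le_mul_left _ (hm.trans (card_le_of_le (commutator_mono hS hS)))

theorem sg_of_card (h : ¬ 2 ^ 12 ∣ Nat.card K) : SG K :=
  sg_of_sub (Q := ⊥) (m := 0) IsPGroup.of_bot h Nat.card_pos le_rfl

omit [Finite K] in
theorem SG.equiv (h : SG L) (e : K ≃* L) : SG K := by
  obtain ⟨S, hS⟩ := h
  refine ⟨S.comapOfInjective e.toMonoidHom e.injective (by
    rw [MonoidHom.range_eq_top.2 e.surjective]; exact le_top), ?_⟩
  have k : ∀ A : Subgroup L, A.comap e.toMonoidHom = A.map e.symm.toMonoidHom := fun A =>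
    comap_equiv_eq_map_symm e A
  change Nat.card ((S : Subgroup L).comap e.toMonoidHom) ≤ 2 ^ 11 *
    Nat.card ↥⁅(S : Subgroup L).comap e.toMonoidHom, (S : Subgroup L).comap e.toMonoidHom⁆
  rw [k, ← map_commutator, card_map_of_injective e.symm.injective,
    card_map_of_injective e.symm.injective]
  exact hS

theorem W.equiv (h : W L) (e : K ≃* L) : W K :=
  h.imp (·.of_inj e.symm.toMonoidHom e.symm.injective) fun h =>
    ⟨h.1.of_inj e.symm.toMonoidHom e.symm.injective,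
      h.2.imp (·.of_inj e.symm.toMonoidHom e.symm.injective) (·.equiv e)⟩

omit [Finite K] in
theorem PO.equiv (h : PO L) (e : K ≃* L) : PO K := by
  intro B hB φ hφ
  obtain ⟨g, hg⟩ := h (B.map (MulAut.congr e).toMonoidHom) (by rw [← map_commutator, hB])
    ⟨φ, hφ, rfl⟩
  refine ⟨e.symm g, MulEquiv.ext fun x => e.injective ?_⟩
  have := DFunLike.congr_fun hg (e x)
  simpa [MulAut.congr] using this

omit [Finite K] in
theorem po_of_solvable (h : Group.IsSolvable (Out K)) : PO K := by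
  intro B hB
  rw [← QuotientGroup.ker_mk' (Inn K), ← Subgroup.map_eq_bot_iff]
  by_contra c
  have := Group.IsSolvable.commutator_lt_of_ne_bot c
  rw [← map_commutator, hB] at this
  exact this.ne rfl

theorem Lst.equiv (h : Lst L) (e : K ≃* L) : Lst K := by
  rcases h with ⟨p, h1, h2, h3⟩ | ⟨F, _, _, h1, ⟨f⟩⟩ | ⟨F, _, _, m, h1, h2, ⟨f⟩⟩ |
    ⟨F, _, _, h1, h2, ⟨f⟩⟩ | ⟨⟨f⟩⟩
  · exact .inl ⟨p, h1, h2, h3.of_inj e.symm.toMonoidHom e.symm.injective⟩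
  · exact .inr (.inl ⟨F, _, inferInstance, h1, ⟨e.trans f⟩⟩)
  · exact .inr (.inr (.inl ⟨F, _, _, m, h1, h2, ⟨e.trans f⟩⟩))
  · exact .inr (.inr (.inr (.inl ⟨F, _, _, h1, h2, ⟨e.trans f⟩⟩)))
  · exact .inr (.inr (.inr (.inr ⟨e.trans f⟩)))

omit [Finite K] in
theorem Thr.equiv (h : Thr L) (e : K ≃* L) : Thr K := by
  unfold Thr at *
  rwa [Nat.card_congr e.toEquiv]

theorem KF.equiv (h : KF L) (e : K ≃* L) : KF K :=
  h.imp (fun h => ⟨h.1.equiv e, h.2.1.equiv e, h.2.2.equiv e⟩) (·.equiv e)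

theorem W.r2 (h : W K) : R2 3 K := h.elim ES.r2 (·.1)

omit [Finite K] in
theorem R2.lst (h : R2 3 K) : Lst K := .inl ⟨3, by decide, by decide, h⟩

theorem R2.thr (h : R2 3 K) : Thr K := .inl h.dvd

theorem KF.lst (h : KF K) : Lst K := h.elim (·.2.1) (·.r2.lst)

theorem KF.thr (h : KF K) : Thr K := h.elim (·.2.2) (·.r2.thr)

theorem kf_of_po (h : PO K) (h3 : R2 3 K) : KF K := .inl ⟨h, h3.lst, h3.thr⟩

/-! the pieces about linear groups -/

/-- (G1) the action on a `p`-subgroup of a group of `p`-rank at most two -/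
def G1 : Prop := ∀ (p : ℕ) [Fact p.Prime] (G : Type u) [Group G] [Finite G] (P : Subgroup G),
  p ≠ 2 → IsPGroup p P → PRankLE p 2 G → ∃ f : Nm(P) →* GL (Fin 2) (ZMod p),
    ∀ B : Subgroup Nm(P), ⁅B, B⁆ = B → B ≤ f.ker → B.map Nm(P).subtype ≤ Cz(P)

/-- (G2) a perfect subgroup of `GL₂(p)` has no proper non-solvable normal subgroup -/
def G2 : Prop := ∀ (p : ℕ) [Fact p.Prime] (X N : Subgroup (GL (Fin 2) (ZMod p))), p ≠ 2 →
  ⁅X, X⁆ = X → N ≤ X → X ≤ normalizer (N : Set (GL (Fin 2) (ZMod p))) →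
  ¬ Group.IsSolvable N → N = X

/-- (G3) the action on a 2-subgroup with small abelianisation -/
def G3 : Prop := ∀ (G : Type u) [Group G] [Finite G] (S : Subgroup G), IsPGroup 2 S →
  Nat.card S ≤ 2 ^ 11 * Nat.card ↥⁅S, S⁆ → ∃ N : Subgroup Nm(S), N.Normal ∧ N.index ∣ c11 ∧
    ∀ B : Subgroup Nm(S), ⁅B, B⁆ = B → B ≤ N → B.map Nm(S).subtype ≤ Cz(S)

/-- (G4) `ES` lifts to central extensions -/
def G4 : Prop := ∀ (L : Type u) [Group L] [Finite L], ES (L ⧸ center L) → ¬ PRankLE 3 2 L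

end Qc
end CfH2
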