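import Cfsg.Agent.OD.Pre
import Cfsg.Agent.H2.Oct
import Cfsg.Agent.H2.AutT

/-! Triality: an automorphism of `PΩ₈⁺(q)` that is not induced by a semisimilarity. -/

set_option autoImplicit false
set_option linter.unusedSectionVars false
set_option linter.unusedSimpArgs false

namespace CfH2

open Module QuadraticMap
open scoped commutatorElement

variable {F : Type*} [Field F]

/-- Related triples. -/
def Tri (A B C : O8 F ≃ₗ[F] O8 F) : Prop := ∀ x y, A (omul F x y) = omul F (B x) (C y)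

theorem qwf_four : QWF (qPlus 4 F) := qwf_of_nondeg (nondeg_qPlus 4)

theorem finrank_O8 : finrank F (O8 F) = 8 := by simp

theorem Tri.scalar {A B C : O8 F ≃ₗ[F] O8 F} (h : Tri A B C) {l : F} (hB : ∀ x, B x = l • x) :
    ∃ c : F, ∀ x, A x = c • x := by
  have hl : l ≠ 0 := by
    rintro rfl
    have := hB (oone F)
    rw [zero_smul, LinearEquiv.map_eq_zero_iff] at this
    simpa [this] using (q_oone (F := F)).symm
  have h1 : ∀ y, A y = l • C y := fun y => by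
    have := h (oone F) y
    rwa [one_omul, hB, map_smul, LinearMap.smul_apply, one_omul] at this
  have h2 : ∀ x y, C (omul F x y) = omul F x (C y) := fun x y => by
    have := h x y
    rw [h1, hB, map_smul, LinearMap.smul_apply] at this
    exact smul_right_injective _ hl this
  have h3 : ∀ x, C x = omul F x (C (oone F)) := fun x => by rw [← h2, omul_one]
  have h4 := nucleus (c := C (oone F)) fun x y => by rw [← h3, h2, ← h3]
  exact ⟨l * C (oone F) (.inl 0), fun x => by rw [h1, h3 x, h4, map_smul, omul_one, mul_smul, ← h4]⟩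

theorem Tri.swap {A B C : O8 F ≃ₗ[F] O8 F} (h : Tri A B C) (hA : A ∈ Orth (qPlus 4 F))
    (hB : B ∈ Orth (qPlus 4 F)) : Tri B A (ocj F * C * ocj F) := by
  have hC : ∀ w, qPlus 4 F (C w) = qPlus 4 F w := fun w => by
    have := congrArg (qPlus 4 F) (h (oone F) w)
    rw [Q_orth hA, q_omul, q_omul, Q_orth hB, q_oone, one_mul, one_mul] at this
    exact this.symm
  have key : ∀ x y, qPlus 4 F y ≠ 0 → B (omul F x y) = omul F (A x) ((ocj F * C * ocj F) y) := by
    intro x y hy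
    have h1 := h (omul F x y) (ocj F y)
    rw [omul_omul_ocj, map_smul] at h1
    have h2 := congrArg (fun z => omul F z (ocj F (C (ocj F y)))) h1
    simp only [omul_omul_ocj, map_smul, LinearMap.smul_apply, hC, q_ocj] at h2
    exact (smul_right_injective _ hy h2).symm
  intro x y
  by_cases hy : qPlus 4 F y = 0
  swap
  · exact key x y hy
  obtain ⟨z, hz, hQz⟩ : ∃ z, polar (qPlus 4 F) y z = 0 ∧ qPlus 4 F z ≠ 0 := by
    by_contra hc
    push Not at hc
    have h1 : ∀ u ∈ perp (qPlus 4 F).polarBilin (F ∙ y), qPlus 4 F u = 0 := fun u hu =>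
      hc u (mem_perp_singleton.1 hu)
    have h2 := Submodule.finrank_mono (le_perp_of_sing h1)
    rw [qwf_four.perp_perp] at h2
    have h3 := qwf_four.finrank_perp (F ∙ y)
    have h4 := finrank_span_le_card (R := F) ({y} : Set (O8 F))
    rw [finrank_O8] at h3
    simp only [Set.toFinset_card, Fintype.card_unique] at h4
    exact absurd (h3.ge.trans (add_le_add h4 (h2.trans h4))) (by norm_num)
  have h1 := key x (y + z) (by rw [Q_add', hy, hz]; simpa using hQz)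
  simp only [map_add, key x z hQz] at h1
  exact add_right_cancel h1

theorem exists_orth_of_map {V : Type*} [AddCommGroup V] [Module F V] [FiniteDimensional F V]
    {Q : QuadraticForm F V} (h : QWF Q) (f : V →ₗ[F] V) (hf : ∀ x, Q (f x) = Q x) :
    ∃ g ∈ Orth Q, ∀ x, g x = f x :=
  h.exists_isom_of_linearMap f (fun x y => by
    simp only [polarBilin_apply_apply, polar, ← map_add, hf]) hf

theorem rf_rf_one {u : O8 F} (hu : qPlus 4 F u ≠ 0) (x : O8 F) :
    rf (qPlus 4 F) u (rf (qPlus 4 F) (oone F) x) = (qPlus 4 F u)⁻¹ • omul F (omul F u x) u := by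
  have h1 := omul_ocj_omul u (ocj F x)
  rw [ocj_ocj] at h1
  rw [h1, ← neg_eq_iff_eq_neg.2 (ocj_eq x), map_neg, rf_apply, smul_sub, smul_smul, smul_smul,
    inv_mul_cancel₀ hu, one_smul, neg_sub]

theorem exists_tri {u v : O8 F} {c : F} (hu : qPlus 4 F u ≠ 0) (hv : qPlus 4 F v ≠ 0)
    (hc : qPlus 4 F u * qPlus 4 F v = c * c) : ∃ B ∈ Orth (qPlus 4 F), ∃ C,
      Tri (rf (qPlus 4 F) u * rf (qPlus 4 F) v) B C ∧
        ∀ x, B x = c⁻¹ • omul F u (omul F (ocj F v) x) := by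
  have hc0 : c ≠ 0 := by
    rintro rfl
    exact mul_ne_zero hu hv (by simpa using hc)
  have h1 : ∀ x, c⁻¹ ^ 2 * (qPlus 4 F u * (qPlus 4 F v * x)) = x := fun x => by
    rw [← mul_assoc (qPlus 4 F u), hc]; field_simp
  obtain ⟨B, hB, hB'⟩ := exists_orth_of_map qwf_four (c⁻¹ • (omul F u ∘ₗ omul F (ocj F v)))
    fun x => by simp only [LinearMap.smul_apply, LinearMap.comp_apply, Q_smul', q_omul, q_ocj, h1]
  obtain ⟨C, -, hC'⟩ := exists_orth_of_map qwf_four
    (c⁻¹ • ((omul F).flip u ∘ₗ (omul F).flip (ocj F v))) fun x => by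
      simp only [LinearMap.smul_apply, LinearMap.comp_apply, Q_smul', q_omul, q_ocj,
        LinearMap.flip_apply]
      rw [← h1 (qPlus 4 F x)]; congr 1; rw [h1]; ring
  refine ⟨B, hB, C, fun x y => ?_, hB'⟩
  have h2 := rf_conj (rf_mem (qPlus 4 F) (oone F)) v
  rw [← neg_eq_iff_eq_neg.2 (ocj_eq v), rf_neg, rf_inv] at h2
  have h3 : ∀ w, rf (qPlus 4 F) v w =
      rf (qPlus 4 F) (oone F) (rf (qPlus 4 F) (ocj F v) (rf (qPlus 4 F) (oone F) w)) := fun w => by
    rw [← h2]; simp [rf_rf]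
  rw [LinearEquiv.mul_apply, h3, rf_rf_one hu, rf_rf_one (by rwa [q_ocj]), omul_moufang, hB', hC']
  simp only [map_smul, LinearMap.smul_apply, omul_moufang, LinearMap.comp_apply,
    LinearMap.flip_apply, smul_smul, q_ocj, ← mul_inv, hc]

variable {G : Type*} [Group G] {ρ : G →* (O8 F ≃ₗ[F] O8 F)}

/-- Pairs that extend to related triples. -/
def TriG (ρ : G →* (O8 F ≃ₗ[F] O8 F)) : Subgroup (G × G) where
  carrier := {p | ∃ C, Tri (ρ p.1) (ρ p.2) C}
  mul_mem' := by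
    rintro a b ⟨C, hC⟩ ⟨D, hD⟩
    exact ⟨C * D, fun x y => by simp [hC _ _, hD _ _]⟩
  one_mem' := ⟨1, fun x y => by simp⟩
  inv_mem' := by
    rintro a ⟨C, hC⟩
    refine ⟨C⁻¹, fun x y => (ρ a.1).injective ?_⟩
    rw [hC]; simp

variable (hρ : Rep ρ (Orth (qPlus 4 F)))
include hρ

theorem TriG_swap {a b : G} (h : (a, b) ∈ TriG ρ) : (b, a) ∈ TriG ρ := by
  obtain ⟨C, hC⟩ := h
  exact ⟨_, hC.swap (hρ.mem a) (hρ.mem b)⟩

theorem TriG_total [Finite F] {a : G} (ha : a ∈ commutator G) :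
    ∃ b ∈ commutator G, (a, b) ∈ TriG ρ := by
  have h1 := hρ.commutator_le_comm qwf_four finrank_O8.ge (K := (TriG ρ).map (MonoidHom.fst G G))
    (by
      rintro u v hu hv ⟨c, hc⟩
      obtain ⟨B, hB, C, hC, -⟩ := exists_tri hu hv hc
      obtain ⟨b, rfl⟩ := hρ.surj B hB
      exact ⟨(hρ.rG u * hρ.rG v, b), ⟨C, by simpa [hρ.map_rG] using hC⟩, rfl⟩) ha
  rw [← Subgroup.map_commutator] at h1
  obtain ⟨⟨a', b⟩, h2, rfl⟩ := h1
  refine ⟨b, ?_, Subgroup.commutator_le.2 (fun x hx y hy => by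
    exact mul_mem (mul_mem (mul_mem hx hy) (inv_mem hx)) (inv_mem hy)) h2⟩
  have := Subgroup.mem_map_of_mem (MonoidHom.snd G G) h2
  rw [Subgroup.map_commutator] at this
  exact Subgroup.commutator_mono le_top le_top this

theorem exists_triality [Finite F] :
    ∃ γ : MulAut (commutator G ⧸ Subgroup.center (commutator G)), ∀ a b : commutator G,
      ((a : G), (b : G)) ∈ TriG ρ → γ (QuotientGroup.mk' _ a) = QuotientGroup.mk' _ b := by
  have S := hρ.setup_omega qwf_four (by rw [finrank_O8]; norm_num)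
  let π := QuotientGroup.mk' (Subgroup.center (commutator G))
  let R := ((TriG ρ).comap ((commutator G).subtype.prodMap (commutator G).subtype)).map
    (π.prodMap π)
  have hs : ∀ g g', (g, g') ∈ R → (g', g) ∈ R := by
    rintro g g' ⟨⟨a, b⟩, h1, h2⟩
    obtain ⟨rfl, rfl⟩ := Prod.ext_iff.1 h2
    exact ⟨(b, a), TriG_swap hρ h1, rfl⟩
  have hf : ∀ g, (g, 1) ∈ R → g = 1 := by
    rintro g ⟨⟨a, b⟩, ⟨C, h1⟩, h2⟩
    obtain ⟨rfl, h3⟩ := Prod.ext_iff.1 h2
    obtain ⟨l, hl⟩ := (S.ker b).1 h3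
    exact (S.ker a).2 (h1.scalar hl)
  have ht : ∀ g, ∃ g', (g, g') ∈ R := fun g => by
    obtain ⟨a, rfl⟩ := S.surj g
    obtain ⟨b, hb, h1⟩ := TriG_total hρ a.2
    exact ⟨π ⟨b, hb⟩, (a, ⟨b, hb⟩), h1, rfl⟩
  obtain ⟨γ, hγ⟩ := R.exists_mulEquiv_eq_graph (by
    refine ⟨(injective_iff_map_eq_one ((MonoidHom.fst _ _).comp R.subtype)).2 ?_, fun g => ?_⟩
    · rintro ⟨⟨g, g'⟩, h1⟩ rfl
      exact Subtype.ext (Prod.ext rfl (hf _ (hs _ _ h1)))
    · obtain ⟨g', h1⟩ := ht g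
      exact ⟨⟨_, h1⟩, rfl⟩) (by
    refine ⟨(injective_iff_map_eq_one ((MonoidHom.snd _ _).comp R.subtype)).2 ?_, fun g => ?_⟩
    · rintro ⟨⟨g, g'⟩, h1⟩ rfl
      exact Subtype.ext (Prod.ext (hf _ h1) rfl)
    · obtain ⟨g', h1⟩ := ht g
      exact ⟨⟨_, hs _ _ h1⟩, rfl⟩)
  refine ⟨γ, fun a b hab => ?_⟩
  have : (π a, π b) ∈ R := ⟨(a, b), hab, rfl⟩
  rw [hγ] at this
  exact this

theorem index_Ind_four [Fintype F] (p : ℕ) [Fact p.Prime] [CharP F p] :
    (hρ.setup_omega qwf_four (by rw [finrank_O8]; norm_num)).Ind.index = 3 := by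
  have S := hρ.setup_omega qwf_four (by rw [finrank_O8]; norm_num)
  obtain ⟨γ, hγ⟩ := exists_triality hρ
  refine hρ.index_Ind_eq_three qwf_four p finrank_O8 (γ := γ) fun hin => ?_
  let n : O8 F := Pi.single (.inl 1) 1
  have hn : qPlus 4 F n = 0 := by simp [qPlus_four, n]
  have hn0 : n ≠ 0 := by simp [n]
  have hn1 : polar (qPlus 4 F) n (oone F) = 0 := by simp [polar_four, n, oone]
  have hu : qPlus 4 F (oone F + n) = 1 := by simp [qPlus_four, n, oone]
  have h1 : qPlus 4 F (oone F) ≠ 0 := by rw [q_oone]; exact one_ne_zero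
  obtain ⟨z, hz, hz0, hφ⟩ := S.phi_of_induced p hin hn hn0
  have hE := (isEich_rf hn hn1 h1).mem_Qx hn hn1
  rw [q_oone, one_smul] at hE
  have hE' := inv_mem hE
  rw [mul_inv_rev, rf_inv, rf_inv] at hE'
  obtain ⟨a, ha⟩ := S.unip n hn _ hE'
  obtain ⟨B, hB, C, hC, hB'⟩ := exists_tri (c := 1) (by rw [hu]; exact one_ne_zero) h1
    (by rw [hu, q_oone])
  obtain ⟨b0, rfl⟩ := hρ.surj B hB
  obtain ⟨b, hb, hab⟩ := TriG_total hρ a.2
  have hab0 : ((a : G), b0) ∈ TriG ρ := ⟨C, by rw [← ha] at hC; exact hC⟩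
  obtain ⟨D, hD⟩ := TriG_swap hρ (show ((1 : G), b0⁻¹ * b) ∈ TriG ρ by
    simpa using mul_mem (inv_mem hab0) hab)
  obtain ⟨l, hl⟩ := hD.scalar (l := 1) (by simp)
  obtain ⟨b', hb', e⟩ := hφ.lift (a := a) (by rw [ha]; exact hE')
  obtain ⟨μ, hμ⟩ := S.scalar_of_pi (e.symm.trans (hγ a ⟨b, hb⟩ hab))
  have hone : ocj F (oone F) = oone F := by rw [ocj_eq, rf_self h1, neg_neg]
  have h2 : ∀ y, omRep ρ b' y = (μ * l) • (y + omul F n y) := fun y => by
    have h3 : ρ b y = ρ b0 (ρ (b0⁻¹ * b) y) := by simp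
    rw [hμ, mul_smul]
    congr 1
    rw [show omRep ρ ⟨b, hb⟩ y = ρ b y from rfl, h3, hl, map_smul, hB', hone, one_omul]
    simp [one_omul]
  have hml : μ * l ≠ 0 := fun h0 => hz0 (by rw [← (mem_Qx.1 hb').2.1, h2, h0, zero_smul])
  let K : Submodule F (O8 F) := ⊤ ⊓ LinearMap.ker ((qPlus 4 F).polarBilin z) ⊓
    LinearMap.ker (LinearMap.proj (.inl 0)) ⊓ LinearMap.ker (LinearMap.proj (.inl 1)) ⊓
    LinearMap.ker (LinearMap.proj (.inl 2)) ⊓ LinearMap.ker (LinearMap.proj (.inr 2)) ⊓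
    LinearMap.ker (LinearMap.proj (.inr 3))
  have hK : 2 ≤ finrank F K := by
    have e0 := (finrank_top F (O8 F)).trans finrank_O8
    have e1 := (le_finrank_inf_ker_add_one (⊤ : Submodule F (O8 F)) ((qPlus 4 F).polarBilin z)).trans
      (Nat.succ_le_succ ((le_finrank_inf_ker_add_one _ (LinearMap.proj (.inl 0))).trans
      (Nat.succ_le_succ ((le_finrank_inf_ker_add_one _ (LinearMap.proj (.inl 1))).trans
      (Nat.succ_le_succ ((le_finrank_inf_ker_add_one _ (LinearMap.proj (.inl 2))).trans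
      (Nat.succ_le_succ ((le_finrank_inf_ker_add_one _ (LinearMap.proj (.inr 2))).trans
      (Nat.succ_le_succ (le_finrank_inf_ker_add_one _ (LinearMap.proj (.inr 3))))))))))))
    change _ ≤ finrank F K + 1 + 1 + 1 + 1 + 1 + 1 at e1
    omega
  have hinj : ∀ y ∈ K, omRep ρ b' y = y → y = 0 := by
    rintro y ⟨⟨⟨⟨⟨-, a0⟩, a1⟩, a2⟩, a3⟩, a4⟩ hy
    simp only [SetLike.mem_coe, LinearMap.mem_ker, LinearMap.proj_apply] at a0 a1 a2 a3 a4
    rw [h2] at hy
    have b0 := congrFun hy (.inl 0)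
    have b1 := congrFun hy (.inl 1)
    have b2 := congrFun hy (.inr 2)
    simp only [Pi.smul_apply, Pi.add_apply, omul_l0, omul_l1, omul_r2, smul_eq_mul, a0, a1, a2, a3,
      a4, mul_eq_zero, hml, false_or] at b0 b1 b2
    simp [n] at b0 b1 b2
    apply o8_ext <;> simp [*]
  obtain ⟨y1, hy1, e1⟩ := exists_mem_notMem_of_finrank_lt (X := ⊥) (W := K) (by simp; omega)
  obtain ⟨y2, hy2, e2⟩ := exists_mem_notMem_of_finrank_lt (X := F ∙ y1) (W := K) (by
    rw [finrank_span_singleton e1]; omega)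
  obtain ⟨t1, ht1⟩ := (mem_Qx.1 hb').2.2 y1 hy1.1.1.1.1.1.2
  obtain ⟨t2, ht2⟩ := (mem_Qx.1 hb').2.2 y2 hy2.1.1.1.1.1.2
  have h4 := hinj (t2 • y1 - t1 • y2) (K.sub_mem (K.smul_mem _ hy1) (K.smul_mem _ hy2)) (by
    rw [map_sub, map_smul, map_smul, ht1, ht2]; module)
  by_cases h0 : t1 = 0
  · exact e1 (hinj y1 hy1 (by rw [ht1, h0]; simp))
  · exact e2 (Submodule.mem_span_singleton.2 ⟨t1⁻¹ * t2, by
      rw [mul_smul, sub_eq_zero.1 h4, smul_smul, inv_mul_cancel₀ h0, one_smul]⟩)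

end CfH2
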