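import Cfsg.Agent.OD.Pre
import Cfsg.Agent.H8.W0
import Cfsg.Agent.H7.PIrr

/-! The group generated by an orbit of components and the Sylow subgroup is a minimal overgroup. -/

set_option autoImplicit false
set_option linter.unusedSectionVars false

namespace CfH2.W

open Subgroup MulAction CfH9 Cfsg CfH8 CfH8.W
open scoped commutatorElement
open CfH7 (OZ UMax)

variable {G : Type*} [Group G] [Finite G] {T L K K' K₂ Y : Subgroup G}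

theorem sep (h : W.LL T L) (hK : JC (JJ 2 T) K) (hKL : K ≤ L) (hK' : JC (JJ 2 T) K') (hKL' : K' ≤ L)
    (hne : K ≠ K') : ∃ a ∈ JJ 2 T, (⁅K, zpowers a⁆ ≤ Cz(ZL L) ∧ ¬ ⁅K', zpowers a⁆ ≤ Cz(ZL L)) ∨
      (¬ ⁅K, zpowers a⁆ ≤ Cz(ZL L) ∧ ⁅K', zpowers a⁆ ≤ Cz(ZL L)) := by
  have hLZ := CfH7.le_Nm_OZ_pCoreOf (p := 2) L
  have hne' : hb (ZL L) K ≠ hb (ZL L) K' := fun e => hne (W.comp_eq_of_hb_eq h hK hKL hK' hKL' e)
  obtain ⟨A, hA, hAK⟩ : ∃ A, MaxEl 2 A T ∧ ¬ hb (ZL L) A ≤ Cz(hb (ZL L) K) := by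
    by_contra hc
    push Not at hc
    have h1 : hb (ZL L) (JJ 2 T) ≤ Cz(hb (ZL L) K) := by
      rw [hb_le_iff (h.J_le.trans hLZ), J_le_iff]
      intro A hA
      rw [← hb_le_iff ((hA.le.trans h.syl.le).trans hLZ)]
      exact hc A hA
    rw [← CfH7.comm_eq_bot_right, ← hb_commutator (hKL.trans hLZ) (h.J_le.trans hLZ), hK.comm,
      hb_eq_bot_iff (hKL.trans hLZ)] at h1
    exact W.comp_not_le_C h hK hKL h1
  have hAL := hA.le.trans h.syl.le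
  obtain ⟨x, hx, hsep⟩ := exists_separating (W.elemAb_VL L) (W.RL_nil L) (h.odd_RL) (W.RL_le_Nm L)
    (W.RL_faithful L) (elemAb_hb hA.el) (hb_le_Nm_hv_self _) (h.best hA) (W.hb_le_Nm_RL hAL)
    (W.comp_le_RL h hK hKL) (W.comp_dd h hK hKL) (W.comp_le_RL h hK' hKL')
    (W.comp_dd h hK' hKL') hne' hAK
  obtain ⟨a, ha, rfl⟩ := mem_hb.1 hx
  have key : ∀ X : Subgroup G, X ≤ L →
      (holA (ZL L) a ∈ Cz(hb (ZL L) X) ↔ ⁅X, zpowers (a : G)⁆ ≤ Cz(ZL L)) := fun X hX => by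
    have haL : zpowers (a : G) ≤ L := zpowers_le.2 (hAL ha)
    rw [← zpowers_le, ← hb_zpowers, ← CfH7.comm_eq_bot_right,
      ← hb_commutator (hX.trans hLZ) (haL.trans hLZ),
      hb_eq_bot_iff ((commutator_le_self' hX haL).trans hLZ)]
  rw [key K hKL, key K' hKL'] at hsep
  exact ⟨a, hA.le_J ha, hsep⟩

theorem absorb {J : Subgroup G} (hK : JC J K) (h1 : pCoreOf 2 K ≤ Y) {x : G} (hx : x ∈ K) (hY : x ∈ Y)
    (n : x ∉ pCoreOf 2 K) : K ≤ Y := by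
  by_contra e
  exact n (hK.inf_eq h1 e ▸ mem_inf.2 ⟨hx, hY⟩)

theorem pull (h : W.LL T L) (hK : JC (JJ 2 T) K) (hKL : K ≤ L) (hK' : JC (JJ 2 T) K') (hKL' : K' ≤ L)
    (hY : T ≤ Y) {a k x : G} (ha : a ∈ JJ 2 T) (h1 : ⁅K, zpowers a⁆ ≤ Cz(ZL L))
    (h2 : ¬ ⁅K', zpowers a⁆ ≤ Cz(ZL L)) (hk : k ∈ K) (hx : x ∈ K') (hy : k * x ∈ Y)
    (n : x ∉ pCoreOf 2 K') : K' ≤ Y := by
  have q := (W.comp_pCoreOf_le h hK hKL).trans (h.Q_le.trans hY)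
  have q' := (W.comp_pCoreOf_le h hK' hKL').trans (h.Q_le.trans hY)
  have nk : k ∈ Nm(K') := W.comp_le_Nm h hK' hKL' hK hKL hk
  have aY := hY (J_le T ha)
  have haJ : zpowers a ≤ JJ 2 T := zpowers_le.2 ha
  have m := commutator_mem_commutator hk (mem_zpowers a)
  have c1 : ⁅k, a⁆ ∈ Y := q (W.comp_inf_C h hK hKL ▸
    mem_inf.2 ⟨CfH7.comm_le_left (haJ.trans hK.le_Nm) m, h1 m⟩)
  have c2 : ⁅x, a⁆ ∈ K' :=
    CfH7.comm_le_left (haJ.trans hK'.le_Nm) (commutator_mem_commutator hx (mem_zpowers a))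
  have c3 : k * ⁅x, a⁆ * k⁻¹ ∈ Y := by
    have e : k * ⁅x, a⁆ * k⁻¹ = ((k * x) * a * (k * x)⁻¹ * a⁻¹) * ⁅k, a⁆⁻¹ := by
      simp only [commutatorElement_def]; group
    rw [e]
    exact mul_mem (mul_mem (mul_mem (mul_mem hy aY) (inv_mem hy)) (inv_mem aY)) (inv_mem c1)
  refine absorb hK' q' (conj_mem_of_mem_normalizer nk c2) c3 fun e => h2 ?_
  have c4 : ⁅x, a⁆ ∈ pCoreOf 2 K' := by
    have := conj_mem_of_mem_normalizer' (CfH7.normalizer_le_normalizer_pCoreOf (p := 2) K' nk) e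
    simpa [mul_assoc] using this
  set M := pCoreOf 2 K' with hM
  have nM : K' ≤ Nm(M) := CfH7.le_normalizer_pCoreOf _
  have aM : a ∈ Nm(M) := CfH7.normalizer_le_normalizer_pCoreOf (p := 2) K' (hK'.le_Nm ha)
  let X : Subgroup G :=
    { carrier := {y | y ∈ Nm(M) ∧ ⁅a, y⁆ ∈ M}
      one_mem' := ⟨one_mem _, by simp⟩
      mul_mem' := fun {x y} hx hy => ⟨mul_mem hx.1 hy.1, by
        rw [commutatorElement_mul_right_eq_mul_conj, mul_assoc, mul_assoc, ← mul_assoc x]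
        exact mul_mem hx.2 (conj_mem_of_mem_normalizer hx.1 hy.2)⟩
      inv_mem' := fun {x} hx => ⟨inv_mem hx.1, by
        rw [commutatorElement_inv_right, ← commutatorElement_inv]
        exact conj_mem_of_mem_normalizer' hx.1 (inv_mem hx.2)⟩ }
  have k1 : K' ≤ X := absorb hK' (fun y hy => ⟨le_normalizer hy, by
      rw [commutatorElement_def, mul_assoc]
      exact (mul_assoc (a * y) _ _) ▸ mul_mem (conj_mem_of_mem_normalizer aM hy) (inv_mem hy)⟩) hx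
    ⟨nM hx, by rw [← commutatorElement_inv]; exact inv_mem c4⟩ n
  refine (CfH7.commutator_le_of_le_secCz (M := M) (zpowers_le.2 ⟨aM, fun r hr => ?_⟩)).trans
    ((W.comp_pCoreOf_le h hK' hKL').trans (CfH7.le_Cz_OZ _))
  rw [← commutatorElement_inv]
  exact inv_mem (k1 hr).2

theorem key (g : GH T) (o : Orb T K K₂) (hY : T ≤ Y) {y : G} (h1 : y ∈ K ⊔ K₂) (h2 : y ∈ Y) :
    y ∈ pCoreOf 2 K ⊔ pCoreOf 2 K₂ ∨ K ⊔ K₂ ⊔ T ≤ Y := by
  have h := o.ll g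
  have fin : ∀ {K K₂ : Subgroup G}, Orb T K K₂ → K ≤ Y → K ⊔ K₂ ⊔ T ≤ Y := fun o e => by
    obtain ⟨t, ht, rfl⟩ := o.ex
    exact sup_le (sup_le e ((cj_mono t e).trans (cj_eq_of_mem (hY ht)).le)) hY
  have fin' : K₂ ≤ Y → K ⊔ K₂ ⊔ T ≤ Y := fun e => by rw [sup_comm K]; exact fin o.swap e
  have q := (W.comp_pCoreOf_le h o.jc o.le₁).trans (h.Q_le.trans hY)
  have q' := (W.comp_pCoreOf_le h o.jc₂ o.le₂).trans (h.Q_le.trans hY)
  by_cases hne : K = K₂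
  · subst hne
    rw [sup_idem] at h1
    by_cases n : y ∈ pCoreOf 2 K
    · exact .inl (mem_sup_left n)
    · exact .inr (fin o (absorb o.jc q h1 h2 n))
  obtain ⟨k, hk, x, hx, rfl⟩ :=
    (mem_sup_iff_of_le_normalizer_left (W.comp_le_Nm h o.jc o.le₁ o.jc₂ o.le₂)).1 h1
  by_cases n : k ∈ pCoreOf 2 K
  · by_cases n' : x ∈ pCoreOf 2 K₂
    · exact .inl (mul_mem_sup n n')
    · exact .inr (fin' (absorb o.jc₂ q' hx ((mul_mem_cancel_left (q n)).1 h2) n'))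
  by_cases n' : x ∈ pCoreOf 2 K₂
  · exact .inr (fin o (absorb o.jc q hk ((mul_mem_cancel_right (q' n')).1 h2) n))
  obtain ⟨a, ha, ⟨s1, s2⟩ | ⟨s1, s2⟩⟩ := sep h o.jc o.le₁ o.jc₂ o.le₂ hne
  · exact .inr (fin' (pull h o.jc o.le₁ o.jc₂ o.le₂ hY ha s1 s2 hk hx h2 n'))
  · exact .inr (fin o (pull h o.jc₂ o.le₂ o.jc o.le₁ hY ha s2 s1 (inv_mem hx) (inv_mem hk)
      (by rw [← mul_inv_rev]; exact inv_mem h2) fun e => n (inv_mem_iff.1 e)))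

theorem not_le_T (g : GH T) (o : Orb T K K₂) : ¬ K ⊔ K₂ ⊔ T ≤ T := fun e =>
  o.jc.not_le g.pgrp (o.le₁.trans e)

theorem P_le (g : GH T) (o : Orb T K K₂) : pCoreOf 2 K ⊔ pCoreOf 2 K₂ ≤ T :=
  sup_le ((W.comp_pCoreOf_le (o.ll g) o.jc o.le₁).trans (o.ll g).Q_le)
    ((W.comp_pCoreOf_le (o.ll g) o.jc₂ o.le₂).trans (o.ll g).Q_le)

theorem inf_le_P (g : GH T) (o : Orb T K K₂) : T ⊓ (K ⊔ K₂) ≤ pCoreOf 2 K ⊔ pCoreOf 2 K₂ :=
  fun _ hy => (key g o le_rfl hy.2 hy.1).resolve_right (not_le_T g o)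

theorem umax (g : GH T) (o : Orb T K K₂) : UMax T (K ⊔ K₂ ⊔ T) T := by
  refine ⟨le_rfl, lt_of_le_not_ge le_sup_right (not_le_T g o), fun Y hY hlt y hy => ?_⟩
  obtain ⟨x, hx, t, ht, rfl⟩ := (mem_sup_iff_of_le_normalizer_left o.T_le_Nm).1 (hlt.le hy)
  exact mul_mem (P_le g o ((key g o hY hx ((mul_mem_cancel_right (hY ht)).1 hy)).resolve_right
    hlt.not_ge)) ht

theorem sylR (g : GH T) (o : Orb T K K₂) {R : Subgroup G} (h1 : R ≤ T)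
    (h2 : pCoreOf 2 K ⊔ pCoreOf 2 K₂ ≤ R) : SylIn 2 R (pResidualOf 2 (K ⊔ K₂ ⊔ T) ⊔ R) := by
  have n := CfH7.le_normalizer_pResidualOf (p := 2) (K ⊔ K₂ ⊔ T)
  have s := (o.ll g).syl.inf_normal' n (CfH7.pResidualOf_le _)
  refine sylIn_of_not_dvd le_sup_right (g.pgrp.to_le h1) ?_
  rw [sup_comm, CfH7.relIndex_sup_eq_relIndex ((h1.trans le_sup_right).trans n)]
  exact s.not_dvd_relIndex_of_le (((inf_le_inf_left T (CfH7.pResidualOf_le_of_le_sup g.pgrp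
    o.T_le_Nm le_rfl)).trans (inf_le_P g o)).trans h2)

end CfH2.W
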