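import Cfsg.Agent.OD.Pre
import Cfsg.Agent.H2.W0a
import Cfsg.Agent.H7.QT3

/-! The pushing-up statement for an orbit of components. -/

set_option autoImplicit false

namespace CfH2.W

open Subgroup CfH9 Cfsg CfH8 CfH8.W

universe u

theorem uu {G : Type u} [Group G] [Finite G] {T : Subgroup G} (g : GH T) : UU T := by
  intro K K₂ M₀ R o hM _ hR hT hP hN
  obtain ⟨X, a, b, c⟩ := CfH7.common_normal g.syl (fun L x y => (g.loc L x y).2) hM (umax g o) o.loc
    hR hT (sylR g o hT hP) hN
  exact ⟨X, a, b, le_sup_left.trans c, (o.le₁.trans le_sup_right).trans c⟩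

theorem p0 : P0.{u} := fun _ _ _ g => uu g

end CfH2.W
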